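import Cfsg.Agent.H98.MaximalSpPair

set_option autoImplicit false
set_option linter.unusedSectionVars false

/-!
For odd `q ≥ 5` the stabiliser of a pair of complementary totally isotropic planes is maximal in the four
dimensional symplectic group.
-/

namespace Cfsg.Agent.H99.SpFour

open Cfsg.Agent.H98
open scoped Matrix

variable {m : ℕ} {F : Type*} [Field F]

local notation "V" => (Fin m ⊕ Fin m → F)
local notation "Mat" => Matrix (Fin m ⊕ Fin m) (Fin m ⊕ Fin m) F
local notation "β" => Cfsg.Agent.H2.sympBilin m F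

attribute [-simp] Cfsg.Agent.H2.sympBilin_apply

/-- The element scaling a hyperbolic pair by `t` and `t⁻¹` and fixing its perpendicular. -/
theorem exists_hyp_scale {x z : V} (h : β x z ≠ 0) {t : F} (ht : t ≠ 0) :
    ∃ n ∈ Cfsg.spGL m F, ∀ v, (n : Mat) *ᵥ v =
      v + ((t - 1) * (β x z)⁻¹ * β v z) • x + ((t⁻¹ - 1) * (β x z)⁻¹ * β x v) • z := by
  classical
  let L : V →ₗ[F] V := LinearMap.id + (((t - 1) * (β x z)⁻¹) • (Cfsg.Agent.H2.sympBilin m F).flip z).smulRight x +
    (((t⁻¹ - 1) * (β x z)⁻¹) • (Cfsg.Agent.H2.sympBilin m F) x).smulRight z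
  have hL : ∀ v, L v = v + ((t - 1) * (β x z)⁻¹ * β v z) • x + ((t⁻¹ - 1) * (β x z)⁻¹ * β x v) • z := fun v => rfl
  have hiso : ∀ u v, β (L u) (L v) = β u v := fun u v => by
    have e := beta_swap x z
    simp only [hL, map_add, map_smul, LinearMap.add_apply, LinearMap.smul_apply, smul_eq_mul, beta_self, e,
      beta_swap z v, beta_swap u x]
    field_simp
    ring
  have hinj : Function.Injective L := by
    rw [injective_iff_map_eq_zero]
    intro v hv
    exact (Cfsg.Agent.H2.sympBilin_nondegenerate m F).1 v fun w => by rw [← hiso, hv]; simp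
  refine ⟨glOfEquiv (LinearEquiv.ofInjectiveEndo L hinj), mem_spGL.mpr fun u v => ?_, fun v => ?_⟩
  · simp only [glOfEquiv_mulVec, LinearEquiv.coe_ofInjectiveEndo]; exact hiso u v
  · simp only [glOfEquiv_mulVec, LinearEquiv.coe_ofInjectiveEndo]; exact hL v

/-- For odd `q ≥ 5` stabilisers of pairs of complementary Lagrangian planes are maximal. -/
theorem sp_pair_maximal_two [Fintype F] {D : Fin 2 → Submodule F (Fin m ⊕ Fin m → F)} (hm : m = 2)
    (h2 : (2 : F) ≠ 0) (hq : 5 ≤ Fintype.card F) (hD : Cfsg.Geo.IsMDecomposition m D)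
    (hts : ∀ i, ∀ u ∈ D i, ∀ v ∈ D i, β u v = 0) :
    Cfsg.Geo.IsMaximalIn (Cfsg.spGL m F) (Cfsg.Geo.decompositionStabilizer D ⊓ Cfsg.spGL m F) := by
  classical
  obtain ⟨t, ht0, ht1⟩ : ∃ t : F, t ≠ 0 ∧ t * t ≠ 1 := by
    have h3 : ({0, 1, -1} : Finset F).card < (Finset.univ : Finset F).card := by
      rw [Finset.card_univ]; exact lt_of_le_of_lt Finset.card_le_three (by omega)
    obtain ⟨t, -, ht⟩ := Finset.exists_mem_notMem_of_card_lt_card h3
    simp only [Finset.mem_insert, Finset.mem_singleton, not_or] at ht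
    exact ⟨t, ht.1, fun h => (mul_self_eq_one_iff.mp h).elim ht.2.1 ht.2.2⟩
  have hc : ∀ (i j : Fin 2), i ≠ j → IsCompl (D i) (D j) := fun i j hij => by
    have h := mdec_isCompl hD i
    have : (⨆ (l) (_ : l ≠ i), D l) = D j := by
      refine le_antisymm (iSup₂_le fun l hl => ?_) (le_iSup₂_of_le j hij.symm le_rfl)
      rw [show l = j by omega]
    rwa [this] at h
  have hsum : ∀ {i j : Fin 2}, i ≠ j → ∀ v, comp hD i v + comp hD j v = v := by
    intro i j hij v
    conv_rhs => rw [← sum_comp hD v, Fin.sum_univ_two]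
    fin_cases i <;> fin_cases j <;> first | exact absurd rfl hij | exact add_comm _ _ | rfl
  have hbc : ∀ {i j : Fin 2}, i ≠ j → ∀ x ∈ D i, ∀ v, β x v = β x (comp hD j v) := by
    intro i j hij x hx v
    conv_lhs => rw [← hsum hij v, map_add, hts i x hx _ (comp_mem hD i v), zero_add]
  have hne0 : ∀ i, ∃ w ∈ D i, w ≠ (0 : V) := fun i => Submodule.exists_mem_ne_zero_of_ne_bot (p := D i) (by
    intro h; have := hD.finrank_eq i; rw [h, finrank_bot] at this; exact hD.pos.ne this)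
  have hnd : ∀ {i j : Fin 2}, i ≠ j → ∀ u ∈ D i, (∀ w ∈ D j, β u w = 0) → u = 0 := fun {i j} hij u hu h =>
    (Cfsg.Agent.H2.sympBilin_nondegenerate m F).1 u fun v => by rw [hbc hij u hu]; exact h _ (comp_mem hD j v)
  -- subspaces avoided
  have hfind : ∀ {i j : Fin 2}, i ≠ j → ∀ (p : V) (S : Submodule F (D j)), (∀ hp : p ∈ D j, (⟨p, hp⟩ : D j) ∉ S) →
      p ∈ D j → ∃ z ∈ D i, β z p = 1 ∧ ∀ w : D j, w ∈ S → β z (w : V) = 0 := by
    intro i j hij p S hS hp
    obtain ⟨φ, h1, h2'⟩ := Submodule.exists_dual_map_eq_bot_of_notMem (hS hp) inferInstance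
    obtain ⟨z, hz, hzw⟩ := pair_surj hc hts hD.finrank_eq hij ((φ ⟨p, hp⟩)⁻¹ • φ)
    refine ⟨z, hz, ?_, fun w hw => ?_⟩
    · rw [hzw ⟨p, hp⟩, LinearMap.smul_apply, smul_eq_mul, inv_mul_cancel₀ h1]
    · rw [hzw w, LinearMap.smul_apply, show φ w = 0 by
        rw [← Submodule.mem_bot (R := F), ← h2']; exact Submodule.mem_map_of_mem hw, smul_zero]
  refine isMaximalIn_of inf_le_right ?_ ?_
  · obtain ⟨u, hu, hu0⟩ := hne0 0
    obtain ⟨w, hw, hwu⟩ : ∃ w ∈ D 1, β u w ≠ 0 := by
      by_contra h; push Not at h; exact hu0 (hnd (by decide) u hu h)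
    refine ⟨spTrans u 1, spTrans_mem _ _, fun h => ?_⟩
    refine not_stab_of_spread hD hw (a := 0) (b := 1) (by decide) ?_ ?_ h.1
    · rw [spTrans_mulVec, map_add, map_smul, comp_other hD (by decide) hw, comp_same hD hu, zero_add, one_mul,
        beta_swap u w]
      exact smul_ne_zero (neg_ne_zero.mpr hwu) hu0
    · rw [spTrans_mulVec, map_add, map_smul, comp_same hD hw, comp_other hD (by decide) hu, smul_zero, add_zero]
      intro h
      exact hwu (by rw [h, map_zero])
  intro M hHM hMK g hg hgH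
  let C : Set V := {v | ∀ c, spTrans v c ∈ M}
  have hCconj : ∀ h ∈ M, ∀ v ∈ C, (h : Mat) *ᵥ v ∈ C := by
    intro h hh v hv c
    rw [← conj_spTrans (hMK hh)]
    exact M.mul_mem (M.mul_mem hh (hv c)) (M.inv_mem hh)
  have hCsmul : ∀ v ∈ C, ∀ a : F, a • v ∈ C := fun v hv a c => by rw [spTrans_smul]; exact hv _
  obtain ⟨s, hs, hsmap⟩ := exists_pair_swap hD hts
  -- stabilising from scaling
  have hscaleN : ∀ {i j : Fin 2}, i ≠ j → ∀ x ∈ D i, ∀ z ∈ D j, β x z ≠ 0 → ∀ c : F, c ≠ 0 →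
      ∃ n ∈ Cfsg.Geo.decompositionStabilizer D ⊓ Cfsg.spGL m F, ∀ v, (n : Mat) *ᵥ v =
        v + ((c - 1) * (β x z)⁻¹ * β v z) • x + ((c⁻¹ - 1) * (β x z)⁻¹ * β x v) • z := by
    intro i j hij x hx z hz hne c hc0
    obtain ⟨n, hn, hnv⟩ := exists_hyp_scale hne hc0
    refine ⟨n, ⟨stab_of_members fun l w hw => ?_, hn⟩, hnv⟩
    rw [hnv]
    rcases (show l = i ∨ l = j by omega) with rfl | rfl
    · rw [hts l x hx w hw, mul_zero, zero_smul, add_zero]
      exact add_mem hw ((D l).smul_mem _ hx)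
    · rw [hts l w hw z hz, mul_zero, zero_smul, add_zero]
      exact add_mem hw ((D l).smul_mem _ hz)
  have hfr : ∀ i, Module.finrank F (D i) = 2 := fun i => (hD.finrank_eq i).trans hm
  -- step 1: an element outside fixing the line of a pure vector
  obtain ⟨a, y, gy, hy, hy0, hgy, hgyH, lam, hlam⟩ : ∃ (a : Fin 2) (y : V) (gy : GL (Fin m ⊕ Fin m) F),
      y ∈ D a ∧ y ≠ 0 ∧ gy ∈ M ∧ gy ∉ Cfsg.Geo.decompositionStabilizer D ⊓ Cfsg.spGL m F ∧
      ∃ lam : F, (gy : Mat) *ᵥ y = lam • y := by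
    have hnorm : ∀ (a b : Fin 2) (y : V) (k : GL (Fin m ⊕ Fin m) F), y ∈ D a → y ≠ 0 → k ∈ M →
        k ∉ Cfsg.Geo.decompositionStabilizer D ⊓ Cfsg.spGL m F → (k : Mat) *ᵥ y ∈ D b →
        ∃ (a : Fin 2) (y : V) (gy : GL (Fin m ⊕ Fin m) F), y ∈ D a ∧ y ≠ 0 ∧ gy ∈ M ∧
          gy ∉ Cfsg.Geo.decompositionStabilizer D ⊓ Cfsg.spGL m F ∧ ∃ lam : F, (gy : Mat) *ᵥ y = lam • y := by
      intro a b y k hy hy0 hk hkH hkb
      obtain ⟨k', hk', hk'H, hk'a⟩ : ∃ k', k' ∈ M ∧ k' ∉ Cfsg.Geo.decompositionStabilizer D ⊓ Cfsg.spGL m F ∧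
          (k' : Mat) *ᵥ y ∈ D a := by
        by_cases hab : b = a
        · exact ⟨k, hk, hkH, hab ▸ hkb⟩
        refine ⟨s * k, M.mul_mem (hHM hs) hk, fun h => hkH ((Subgroup.mul_mem_cancel_left _ hs).mp h), ?_⟩
        have := hsmap b _ hkb
        rw [show Equiv.swap 0 1 b = a by
          rcases (show a = 0 ∨ a = 1 by omega) with rfl | rfl <;>
            rcases (show b = 0 ∨ b = 1 by omega) with rfl | rfl <;>
            first | exact absurd rfl hab | exact Equiv.swap_apply_left _ _ | exact Equiv.swap_apply_right _ _] at this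
        rwa [Units.val_mul, ← Matrix.mulVec_mulVec]
      by_cases hmem : (k' : Mat) *ᵥ y ∈ Submodule.span F {y}
      · obtain ⟨c, hc⟩ := Submodule.mem_span_singleton.mp hmem
        exact ⟨a, y, k', hy, hy0, hk', hk'H, c, hc.symm⟩
      set y' := (k' : Mat) *ᵥ y with hy'
      -- move `y'` back to `y`
      obtain ⟨w, hw, hw1, hw2⟩ := hfind (i := a + 1) (j := a) (by omega) y'
        ((Submodule.span F {y - y'}).comap (D a).subtype) (fun _ hmem' => by
          obtain ⟨c, hc⟩ := Submodule.mem_span_singleton.mp hmem'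
          have hc' : c • (y - y') = y' := hc
          refine hmem (Submodule.mem_span_singleton.mpr ⟨c * (c + 1)⁻¹, ?_⟩)
          have h1 : (c + 1) • y' = c • y := by
            linear_combination (norm := module) -hc'
          have hc1 : c + 1 ≠ 0 := fun h => by
            rw [h, zero_smul] at h1
            rcases smul_eq_zero.mp h1.symm with h0 | h0
            · rw [h0, zero_add] at h; exact one_ne_zero h
            · exact hy0 h0
          rw [mul_comm, mul_smul, ← h1, inv_smul_smul₀ hc1]) hk'a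
      have h0 : β (y - y') w = 0 := by
        rw [beta_swap w, hw2 ⟨_, sub_mem hy hk'a⟩ (Submodule.mem_span_singleton_self _), neg_zero]
      have hX := spX_stab hts (i := a) (j := a + 1) (by omega) (sub_mem hy hk'a) hw h0 (-1)
      refine ⟨a, y, spX (y - y') w (-1) * k', hy, hy0, M.mul_mem (hHM hX) hk',
        fun h => hk'H ((Subgroup.mul_mem_cancel_left _ hX).mp h), 1, ?_⟩
      rw [Units.val_mul, ← Matrix.mulVec_mulVec, ← hy', spX_mulVec h0, hts a y' hk'a _ (sub_mem hy hk'a),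
        beta_swap w y', hw1]
      module
    set W : Submodule F V := (D 0).comap (Matrix.mulVecLin (g : Mat)) with hW
    by_cases hpure : ∃ i, ∃ v ∈ W, v ≠ 0 ∧ comp hD i v = 0
    · obtain ⟨i, v, hv, hv0, hvi⟩ := hpure
      obtain ⟨j, hji⟩ := exists_ne i
      refine hnorm j 0 v g ?_ hv0 hg (fun h => hgH h) hv
      rw [← hsum hji.symm v, hvi, zero_add]; exact comp_mem hD j v
    push Not at hpure
    let bf : V → V → F := fun u v => β (comp hD 0 u) (comp hD 1 v)
    have hsymb : ∀ u ∈ W, ∀ v ∈ W, bf u v = bf v u := by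
      intro u hu v hv
      have h0 : β u v = 0 := by
        rw [← mem_spGL.mp (hMK hg) u v]; exact hts 0 _ hu _ hv
      have h01 : (0 : Fin 2) ≠ 1 := by decide
      rw [← hsum h01 u, map_add, LinearMap.add_apply, hbc h01 _ (comp_mem hD 0 u), hbc h01.symm _ (comp_mem hD 1 u),
        beta_swap (comp hD 0 v) (comp hD 1 u)] at h0
      exact eq_of_sub_eq_zero (by linear_combination h0)
    have hWdim : Module.finrank F W = 2 := by
      refine le_antisymm ?_ ?_
      · let L : W →ₗ[F] D 0 := (Matrix.mulVecLin (g : Mat) ∘ₗ W.subtype).codRestrict (D 0) fun v => v.2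
        calc Module.finrank F W ≤ Module.finrank F (D 0) := LinearMap.finrank_le_finrank_of_injective (f := L)
              fun u v huv => Subtype.ext (gl_mulVec_injective g (congrArg Subtype.val huv))
          _ = 2 := hfr 0
      · let L : D 0 →ₗ[F] W := (Matrix.mulVecLin ((g⁻¹ : GL (Fin m ⊕ Fin m) F) : Mat) ∘ₗ (D 0).subtype).codRestrict W
          fun v => by
            change (g : Mat) *ᵥ (((g⁻¹ : GL (Fin m ⊕ Fin m) F) : Mat) *ᵥ (v : V)) ∈ D 0
            rw [gl_mulVec_inv]; exact v.2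
        calc 2 = Module.finrank F (D 0) := (hfr 0).symm
          _ ≤ Module.finrank F W := LinearMap.finrank_le_finrank_of_injective (f := L)
              fun u v huv => Subtype.ext (gl_mulVec_injective g⁻¹ (congrArg Subtype.val huv))
    have hWne : ∃ v ∈ W, v ≠ 0 := Submodule.exists_mem_ne_zero_of_ne_bot fun h => by
      rw [h, finrank_bot] at hWdim; omega
    obtain ⟨w₁, hw₁, hκ⟩ : ∃ w₁ ∈ W, bf w₁ w₁ ≠ 0 := by
      by_contra hall
      push Not at hall
      obtain ⟨v, hv, hv0⟩ := hWne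
      refine hpure 1 v hv hv0 (hnd (i := 1) (j := 0) (by decide) _ (comp_mem hD 1 v) fun w hw => ?_)
      let L : W →ₗ[F] D 0 := ((comp hD 0) ∘ₗ W.subtype).codRestrict (D 0) fun u => comp_mem hD 0 _
      have hLinj : Function.Injective L := by
        rw [injective_iff_map_eq_zero]
        exact fun u hu => Subtype.ext (by_contra fun hu0 => hpure 0 u u.2 hu0 (congrArg Subtype.val hu))
      obtain ⟨u, hu⟩ := (LinearMap.injective_iff_surjective_of_finrank_eq_finrank (hWdim.trans (hfr 0).symm)).mp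
        hLinj ⟨w, hw⟩
      have hu' : comp hD 0 (u : V) = w := congrArg Subtype.val hu
      have e := hall _ (W.add_mem u.2 hv)
      have e1 := hall _ u.2
      have e2 := hall _ hv
      have e3 := hsymb _ u.2 _ hv
      simp only [bf, map_add, LinearMap.add_apply] at e e1 e2 e3
      rw [← hu', beta_swap (comp hD 0 (u : V)) (comp hD 1 v), neg_eq_zero]
      exact (mul_eq_zero.mp (show (2 : F) * β (comp hD 0 (u : V)) (comp hD 1 v) = 0 by
        linear_combination e - e1 - e2 + e3)).resolve_left h2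
    obtain ⟨w₂, hw₂, hw₂0, hb₂⟩ : ∃ w₂ ∈ W, w₂ ≠ 0 ∧ bf w₂ w₁ = 0 := by
      let φ : W →ₗ[F] F := (Cfsg.Agent.H2.sympBilin m F).flip (comp hD 1 w₁) ∘ₗ comp hD 0 ∘ₗ W.subtype
      have h := φ.finrank_range_add_finrank_ker
      have h' := Submodule.finrank_le (LinearMap.range φ)
      rw [Module.finrank_self] at h'
      obtain ⟨u, hu, hu0⟩ := Submodule.exists_mem_ne_zero_of_ne_bot (p := LinearMap.ker φ) fun hk => by
        rw [hk, finrank_bot] at h; omega
      exact ⟨u, u.2, fun h => hu0 (Subtype.ext h), hu⟩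
    have hb₂' : bf w₁ w₂ = 0 := (hsymb _ hw₁ _ hw₂).trans hb₂
    simp only [bf] at hκ hb₂ hb₂'
    have h01 : (0 : Fin 2) ≠ 1 := by decide
    obtain ⟨n, hn, hnv⟩ := hscaleN h01 _ (comp_mem hD 0 w₁) _ (comp_mem hD 1 w₁) hκ t ht0
    have hnw2 : (n : Mat) *ᵥ w₂ = w₂ := by
      have e1 : β w₂ (comp hD 1 w₁) = 0 := by
        conv_lhs => rw [← hsum h01 w₂, map_add, LinearMap.add_apply, hb₂, hts 1 _ (comp_mem hD 1 w₂) _ (comp_mem hD 1 w₁)]
        rw [add_zero]
      have e2 : β (comp hD 0 w₁) w₂ = 0 := by rw [hbc h01 _ (comp_mem hD 0 w₁)]; exact hb₂'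
      rw [hnv, e1, e2, mul_zero, mul_zero, zero_smul, zero_smul, add_zero, add_zero]
    have hnw1 : (n : Mat) *ᵥ w₁ = t • w₁ + (t⁻¹ - t) • comp hD 1 w₁ := by
      have e1 : β w₁ (comp hD 1 w₁) = β (comp hD 0 w₁) (comp hD 1 w₁) := by
        conv_lhs => arg 1; arg 2; rw [← hsum h01 w₁]
        rw [map_add, LinearMap.add_apply, hts 1 _ (comp_mem hD 1 w₁) _ (comp_mem hD 1 w₁), add_zero]
      rw [hnv, e1, hbc h01 _ (comp_mem hD 0 w₁) w₁, mul_assoc, inv_mul_cancel₀ hκ, mul_one, mul_assoc,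
        inv_mul_cancel₀ hκ, mul_one]
      conv_lhs => arg 1; arg 1; rw [← hsum h01 w₁]
      conv_rhs => arg 1; rw [← hsum h01 w₁]
      module
    refine hnorm 0 0 _ (g * n * g⁻¹) hw₂ (fun h => hw₂0 ?_) (M.mul_mem (M.mul_mem hg (hHM hn)) (M.inv_mem hg)) ?_ ?_
    · exact gl_mulVec_injective g (show (g : Mat) *ᵥ w₂ = (g : Mat) *ᵥ 0 by rw [Matrix.mulVec_zero]; exact h)
    swap
    · change _ *ᵥ ((g : Mat) *ᵥ w₂) ∈ D 0
      simp only [Units.val_mul, ← Matrix.mulVec_mulVec, gl_inv_mulVec, hnw2]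
      exact hw₂
    intro h
    obtain ⟨σ, hσ⟩ := h.1
    have hmap : ∀ i, ∀ v ∈ D i, ((g * n * g⁻¹ : GL (Fin m ⊕ Fin m) F) : Mat) *ᵥ v ∈ D (σ i) := fun i v hv => by
      rw [← hσ i, ← Matrix.toLin'_apply]; exact Submodule.mem_map_of_mem hv
    have hσ0 : σ 0 = 0 := by
      by_contra hne
      have h1 := hmap 0 _ hw₂
      simp only [Matrix.mulVecLin_apply, Units.val_mul, ← Matrix.mulVec_mulVec, gl_inv_mulVec, hnw2] at h1
      refine hw₂0 (gl_mulVec_injective g ?_)
      change (g : Mat) *ᵥ w₂ = (g : Mat) *ᵥ 0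
      rw [Matrix.mulVec_zero]
      exact (Submodule.mem_bot F).mp ((hc _ _ hne).disjoint.le_bot ⟨h1, hw₂⟩)
    have h1 := hmap 0 _ hw₁
    rw [hσ0] at h1
    simp only [Matrix.mulVecLin_apply, Units.val_mul, ← Matrix.mulVec_mulVec, gl_inv_mulVec, hnw1] at h1
    have h2' : (t⁻¹ - t) • comp hD 1 w₁ ∈ W := by
      have := W.sub_mem (show t • w₁ + (t⁻¹ - t) • comp hD 1 w₁ ∈ W from h1) (W.smul_mem t hw₁)
      rwa [add_sub_cancel_left] at this
    have htt : t⁻¹ - t ≠ 0 := fun h => ht1 (by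
      have := congrArg (t * ·) h; simp only [mul_zero, mul_sub, mul_inv_cancel₀ ht0] at this; linear_combination -this)
    refine hpure 0 _ h2' (smul_ne_zero htt fun h => hκ (by rw [h, map_zero])) ?_
    rw [map_smul, comp_other hD (by decide) (comp_mem hD 1 w₁), smul_zero]
  -- step 2: a transvection centred in a member
  obtain ⟨i, x, hxi, hx0, c₀, hc₀, hT⟩ : ∃ i, ∃ x ∈ D i, x ≠ 0 ∧ ∃ c : F, c ≠ 0 ∧ spTrans x c ∈ M := by
    obtain ⟨b, hab⟩ := exists_ne a
    set x := y
    have hyy : x ∈ D a := hy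
    obtain ⟨x₂, hx₂, hx₂n⟩ : ∃ u ∈ D a, u ∉ Submodule.span F {x} := by
      by_contra hcon
      push Not at hcon
      have := Submodule.finrank_mono (show D a ≤ Submodule.span F {x} from fun u hu => hcon u hu)
      rw [finrank_span_singleton hy0, hfr] at this
      omega
    obtain ⟨z₁, hz₁, hz₁1, hz₁2⟩ := hfind hab x ((Submodule.span F {x₂}).comap (D a).subtype) (fun _ hm' => by
      obtain ⟨c, hc⟩ := Submodule.mem_span_singleton.mp hm'
      have hc' : c • x₂ = x := hc
      have hc0 : c ≠ 0 := fun h0 => hy0 (by rw [← hc', h0, zero_smul])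
      exact hx₂n (Submodule.mem_span_singleton.mpr ⟨c⁻¹, by rw [← hc', inv_smul_smul₀ hc0]⟩)) hyy
    obtain ⟨z₂, hz₂, hz₂1, hz₂2⟩ := hfind hab x₂ ((Submodule.span F {x}).comap (D a).subtype) (fun _ hm' => hx₂n hm') hx₂
    have b1 : β z₁ x₂ = 0 := hz₁2 ⟨x₂, hx₂⟩ (Submodule.mem_span_singleton_self _)
    have b2 : β z₂ x = 0 := hz₂2 ⟨x, hyy⟩ (Submodule.mem_span_singleton_self _)
    have bxz1 : β x z₁ = -1 := by rw [beta_swap z₁ x, hz₁1]
    have bxz2 : β x z₂ = 0 := by rw [beta_swap z₂ x, b2, neg_zero]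
    have b2z1 : β x₂ z₁ = 0 := by rw [beta_swap z₁ x₂, b1, neg_zero]
    have b2z2 : β x₂ z₂ = -1 := by rw [beta_swap z₂ x₂, hz₂1]
    have bxx2 : β x x₂ = 0 := hts a _ hyy _ hx₂
    have bzz : β z₁ z₂ = 0 := hts b _ hz₁ _ hz₂
    have hexp : ∀ v, v = (-β v z₁) • x + (-β v z₂) • x₂ + β v x • z₁ + β v x₂ • z₂ := by
      intro v
      have hind : ∀ w ∈ D b, β x w = 0 → β x₂ w = 0 → w = 0 := by
        intro w hw e1 e2
        refine hnd hab w hw fun u hu => ?_
        have htop : D a = Submodule.span F {x, x₂} := by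
          refine (Submodule.eq_of_le_of_finrank_le (Submodule.span_le.mpr ?_) ?_).symm
          · rintro _ (rfl | rfl) <;> assumption
          · rw [hfr]
            have hli : LinearIndependent F ![x, x₂] := (LinearIndependent.pair_iff' hy0).mpr fun c hc =>
              hx₂n (Submodule.mem_span_singleton.mpr ⟨c, hc⟩)
            have := finrank_span_eq_card hli
            rw [Matrix.range_cons_cons_empty, Fintype.card_fin] at this
            omega
        obtain ⟨c, d, rfl⟩ := Submodule.mem_span_pair.mp (htop ▸ hu)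
        rw [map_add, map_smul, map_smul, beta_swap x w, beta_swap x₂ w, e1, e2, neg_zero, smul_zero, smul_zero,
          add_zero]
      have hA : comp hD a v = (-β v z₁) • x + (-β v z₂) • x₂ := by
        refine sub_eq_zero.mp (hnd hab.symm _ (sub_mem (comp_mem hD a v) (add_mem ((D a).smul_mem _ hyy)
          ((D a).smul_mem _ hx₂))) fun w hw => ?_)
        have e0 : β v w = β (comp hD a v) w := by
          conv_lhs => rw [← hsum hab.symm v, map_add, LinearMap.add_apply, hts b _ (comp_mem hD b v) w hw, add_zero]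
        have hw' : w = (-β x w) • z₁ + (-β x₂ w) • z₂ := by
          refine sub_eq_zero.mp (hind _ (sub_mem hw (add_mem ((D b).smul_mem _ hz₁) ((D b).smul_mem _ hz₂))) ?_ ?_) <;>
            simp [bxz1, bxz2, b2z1, b2z2]
        rw [map_sub, LinearMap.sub_apply, ← e0, sub_eq_zero]
        conv_lhs => rw [hw']
        simp only [map_add, map_smul, map_neg, LinearMap.add_apply, LinearMap.smul_apply, LinearMap.neg_apply,
          smul_eq_mul]
        ring
      have hB : comp hD b v = β v x • z₁ + β v x₂ • z₂ := by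
        refine sub_eq_zero.mp (hind _ (sub_mem (comp_mem hD b v) (add_mem ((D b).smul_mem _ hz₁)
          ((D b).smul_mem _ hz₂))) ?_ ?_)
        · rw [map_sub, ← hbc hab.symm x hyy v, map_add, map_smul, map_smul, bxz1, bxz2, beta_swap x v]; simp
        · rw [map_sub, ← hbc hab.symm x₂ hx₂ v, map_add, map_smul, map_smul, b2z1, b2z2, beta_swap x₂ v]; simp
      conv_lhs => rw [← hsum hab.symm v, hA, hB]
      module
    have hlam0 : lam ≠ 0 := fun h => hy0 (gl_mulVec_injective gy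
      (show (gy : Mat) *ᵥ x = (gy : Mat) *ᵥ 0 by rw [hlam, h, zero_smul, Matrix.mulVec_zero]))
    have hiso := mem_spGL.mp (hMK hgy)
    set A := -β ((gy : Mat) *ᵥ z₂) z₁ with hA
    set B := -β ((gy : Mat) *ᵥ z₂) z₂ with hB
    set C' := β ((gy : Mat) *ᵥ z₂) x₂ with hC
    have hgz2 : (gy : Mat) *ᵥ z₂ = A • x + B • x₂ + C' • z₂ := by
      have e : β ((gy : Mat) *ᵥ z₂) x = 0 := by
        have h := hiso z₂ x
        rw [hlam, map_smul, b2, smul_eq_mul] at h
        exact (mul_eq_zero.mp h).resolve_left hlam0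
      conv_lhs => rw [hexp ((gy : Mat) *ᵥ z₂), e, zero_smul, add_zero]
    have hXN := hHM (spX_stab hts hab.symm hyy hz₂ bxz2 1)
    have hK : spX x x₂ (lam * B) * spTrans x (2 * lam * A + lam * lam * B * C') ∈ M := by
      have h1 := M.mul_mem (M.mul_mem hgy hXN) (M.inv_mem hgy)
      rw [conj_spX (hMK hgy), hlam, hgz2] at h1
      have h2' := M.mul_mem (hHM (spX_stab hts hab.symm hyy hz₂ bxz2 (-(lam * C')))) h1
      convert h2' using 1
      refine gl_ext fun v => ?_
      have e : β (lam • x) (A • x + B • x₂ + C' • z₂) = 0 := by simp [bxx2, bxz2, beta_self]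
      simp only [Units.val_mul, ← Matrix.mulVec_mulVec, spX_mulVec bxz2, spX_mulVec bxx2, spX_mulVec e,
        spTrans_mulVec, map_add, map_smul, LinearMap.add_apply, LinearMap.smul_apply, smul_eq_mul, beta_self,
        bxx2, bxz2, b2, b2z2, beta_swap x x₂, neg_zero, mul_zero, add_zero]
      match_scalars <;> ring
    by_cases hB0 : B = 0
    swap
    · refine ⟨a, x, hyy, hy0, -(2 * (lam * B)), neg_ne_zero.mpr (mul_ne_zero h2 (mul_ne_zero hlam0 hB0)), ?_⟩
      have h := M.mul_mem (M.mul_mem (M.mul_mem hXN hK) (M.inv_mem hXN)) (M.inv_mem hK)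
      convert h using 1
      rw [show spX x z₂ 1 * (spX x x₂ (lam * B) * spTrans x (2 * lam * A + lam * lam * B * C')) * (spX x z₂ 1)⁻¹ =
        (spX x z₂ 1 * spX x x₂ (lam * B) * (spX x z₂ 1)⁻¹) * (spX x z₂ 1 * spTrans x (2 * lam * A + lam * lam * B * C') * (spX x z₂ 1)⁻¹)
        by group, conj_spX (spX_mem x z₂ 1), conj_spTrans (spX_mem x z₂ 1), eq_mul_inv_iff_mul_eq]
      have e1 : (spX x z₂ 1 : Mat) *ᵥ x = x := by rw [spX_mulVec bxz2, bxz2, beta_self]; simp
      have e2 : (spX x z₂ 1 : Mat) *ᵥ x₂ = x₂ + (-1 : F) • x := by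
        rw [spX_mulVec bxz2, b2z2, beta_swap x x₂, bxx2]; simp
      rw [e1, e2]
      refine gl_ext fun v => ?_
      have e : β x (x₂ + (-1 : F) • x) = 0 := by simp [bxx2, beta_self]
      simp only [Units.val_mul, ← Matrix.mulVec_mulVec, spX_mulVec bxx2, spX_mulVec e,
        spTrans_mulVec, map_add, map_smul, LinearMap.add_apply, LinearMap.smul_apply, smul_eq_mul, beta_self,
        bxx2, beta_swap x x₂, neg_zero, mul_zero, add_zero]
      match_scalars <;> ring
    by_cases hA0 : A = 0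
    swap
    · refine ⟨a, x, hyy, hy0, 2 * lam * A, mul_ne_zero (mul_ne_zero h2 hlam0) hA0, ?_⟩
      have e : spX x x₂ (lam * B) = 1 := by
        rw [hB0, mul_zero]; exact gl_ext fun v => by simp [spX_mulVec bxx2]
      rwa [e, one_mul, hB0, mul_zero, zero_mul, add_zero] at hK
    rw [hB0, hA0, zero_smul, zero_smul, zero_add, zero_add] at hgz2
    have hz20 : z₂ ≠ 0 := fun h => by rw [h, map_zero, LinearMap.zero_apply] at hz₂1; exact zero_ne_one hz₂1
    have hC0 : C' ≠ 0 := fun h => hz20 (gl_mulVec_injective gy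
      (show (gy : Mat) *ᵥ z₂ = (gy : Mat) *ᵥ 0 by rw [hgz2, h, zero_smul, Matrix.mulVec_zero]))
    obtain ⟨n₁, hn₁, hn₁v⟩ := hscaleN hab.symm x hyy z₁ hz₁ (by rw [bxz1]; simp) lam⁻¹ (inv_ne_zero hlam0)
    obtain ⟨n₂, hn₂, hn₂v⟩ := hscaleN hab.symm x₂ hx₂ z₂ hz₂ (by rw [b2z2]; simp) C' hC0
    set h := n₂ * n₁ * gy with hh
    have hhM : h ∈ M := M.mul_mem (M.mul_mem (hHM hn₂) (hHM hn₁)) hgy
    have hhH : h ∉ Cfsg.Geo.decompositionStabilizer D ⊓ Cfsg.spGL m F :=
      fun h' => hgyH ((Subgroup.mul_mem_cancel_left _ (Subgroup.mul_mem _ hn₂ hn₁)).mp h')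
    have hhx : (h : Mat) *ᵥ x = x := by
      simp only [hh, Units.val_mul, ← Matrix.mulVec_mulVec, hlam, Matrix.mulVec_smul, hn₁v, hn₂v, map_add, map_smul,
        LinearMap.add_apply, LinearMap.smul_apply, smul_eq_mul, beta_self, bxz1, bxz2, bxx2, beta_swap x x₂,
        inv_inv, inv_neg, inv_one, neg_zero, mul_zero, add_zero, zero_smul, smul_add, smul_zero]
      match_scalars
      field_simp
      ring
    have hhz : (h : Mat) *ᵥ z₂ = z₂ := by
      simp only [hh, Units.val_mul, ← Matrix.mulVec_mulVec, hgz2, Matrix.mulVec_smul, hn₁v, hn₂v, map_add, map_smul,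
        LinearMap.add_apply, LinearMap.smul_apply, smul_eq_mul, beta_self, bxz2, b2z2, bzz, beta_swap z₁ z₂, b2,
        beta_swap z₂ x, inv_neg, inv_one, neg_zero, mul_zero, add_zero, zero_smul, smul_add, smul_zero]
      match_scalars
      field_simp
      ring
    set a' := -β ((h : Mat) *ᵥ x₂) z₁ with ha'
    set h' := spX x z₂ a' * h with hh'
    have hh'M : h' ∈ M := M.mul_mem (hHM (spX_stab hts hab.symm hyy hz₂ bxz2 a')) hhM
    have hh'H : h' ∉ Cfsg.Geo.decompositionStabilizer D ⊓ Cfsg.spGL m F :=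
      fun h'' => hhH ((Subgroup.mul_mem_cancel_left _ (spX_stab hts hab.symm hyy hz₂ bxz2 a')).mp h'')
    have hiso' := mem_spGL.mp (hMK hh'M)
    have hh'x : (h' : Mat) *ᵥ x = x := by
      rw [hh', Units.val_mul, ← Matrix.mulVec_mulVec, hhx, spX_mulVec bxz2, bxz2, beta_self]; simp
    have hh'z : (h' : Mat) *ᵥ z₂ = z₂ := by
      rw [hh', Units.val_mul, ← Matrix.mulVec_mulVec, hhz, spX_mulVec bxz2, b2, beta_self]; simp
    set l := β ((h' : Mat) *ᵥ x₂) x₂
    have hx₂h : (h' : Mat) *ᵥ x₂ = x₂ + l • z₂ := by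
      have e1 : β ((h' : Mat) *ᵥ x₂) x = 0 := by
        rw [← hh'x, hiso', beta_swap x x₂, bxx2, neg_zero]
      have e2 : β ((h' : Mat) *ᵥ x₂) z₂ = -1 := by rw [← hh'z, hiso', b2z2]
      have e3 : β ((h' : Mat) *ᵥ x₂) z₁ = 0 := by
        have hiso0 := mem_spGL.mp (hMK hhM)
        have f1 : β ((h : Mat) *ᵥ x₂) x = 0 := by
          rw [← hhx, hiso0, beta_swap x x₂, bxx2, neg_zero]
        have f2 : β ((h : Mat) *ᵥ x₂) z₂ = -1 := by rw [← hhz, hiso0, b2z2]
        rw [hh', Units.val_mul, ← Matrix.mulVec_mulVec, spX_mulVec bxz2, f1, f2, ha']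
        simp [bxz1, beta_swap z₁ z₂, bzz]
      conv_lhs => rw [hexp ((h' : Mat) *ᵥ x₂), e1, e2, e3]
      module
    set k := β ((h' : Mat) *ᵥ z₁) z₁
    have hz₁h : (h' : Mat) *ᵥ z₁ = z₁ + (-k) • x := by
      have e1 : β ((h' : Mat) *ᵥ z₁) x = 1 := by rw [← hh'x, hiso', beta_swap x z₁, bxz1, neg_neg]
      have e2 : β ((h' : Mat) *ᵥ z₁) z₂ = 0 := by rw [← hh'z, hiso', bzz]
      have e3 : β ((h' : Mat) *ᵥ z₁) x₂ = 0 := by
        have := hiso' z₁ x₂
        rw [hx₂h, map_add, map_smul, e2, b1, smul_zero, add_zero] at this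
        exact this
      conv_lhs => rw [hexp ((h' : Mat) *ᵥ z₁), e1, e2, e3]
      module
    have hh'eq : h' = spTrans x (-k) * spTrans z₂ (-l) := by
      refine gl_ext fun v => ?_
      conv_lhs => rw [hexp v]
      simp only [Matrix.mulVec_add, Matrix.mulVec_smul, hh'x, hh'z, hx₂h, hz₁h]
      simp only [Units.val_mul, ← Matrix.mulVec_mulVec, spTrans_mulVec, map_add, map_smul, LinearMap.add_apply,
        LinearMap.smul_apply, smul_eq_mul, b2, mul_zero, add_zero]
      conv_rhs => arg 1; arg 1; rw [hexp v]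
      module
    by_cases hl : l = 0
    · have hk : k ≠ 0 := fun hk => hh'H (by
        rw [hh'eq, hk, hl, neg_zero, show spTrans x (0 : F) = 1 from gl_ext fun v => by simp [spTrans_mulVec],
          show spTrans z₂ (0 : F) = 1 from gl_ext fun v => by simp [spTrans_mulVec], one_mul]
        exact Subgroup.one_mem _)
      refine ⟨a, x, hyy, hy0, -k, neg_ne_zero.mpr hk, ?_⟩
      rw [hh'eq, hl, neg_zero, show spTrans z₂ (0 : F) = 1 from gl_ext fun v => by simp [spTrans_mulVec],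
        mul_one] at hh'M
      exact hh'M
    obtain ⟨τ, hτ, hτv⟩ := hscaleN hab.symm x₂ hx₂ z₂ hz₂ (by rw [b2z2]; simp) t ht0
    have htt : t⁻¹ * t⁻¹ - 1 ≠ 0 := fun h => ht1 (by
      rw [sub_eq_zero, ← mul_inv] at h; exact inv_eq_one.mp h)
    refine ⟨b, z₂, hz₂, hz20, (t⁻¹ * t⁻¹ - 1) * -l, mul_ne_zero htt (neg_ne_zero.mpr hl), ?_⟩
    have hm' := M.mul_mem (M.mul_mem (M.mul_mem (hHM hτ) hh'M) (M.inv_mem (hHM hτ))) (M.inv_mem hh'M)
    have e1 : (τ : Mat) *ᵥ x = x := by rw [hτv, bxz2, beta_swap x x₂, bxx2]; simp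
    have e2 : (τ : Mat) *ᵥ z₂ = t⁻¹ • z₂ := by
      rw [hτv, beta_self, b2z2]
      match_scalars <;> simp
    rw [hh'eq, show τ * (spTrans x (-k) * spTrans z₂ (-l)) * τ⁻¹ =
      (τ * spTrans x (-k) * τ⁻¹) * (τ * spTrans z₂ (-l) * τ⁻¹) by group, conj_spTrans hτ.2, conj_spTrans hτ.2, e1,
      e2, spTrans_smul] at hm'
    convert hm' using 1
    rw [eq_mul_inv_iff_mul_eq]
    refine gl_ext fun v => ?_
    simp only [Units.val_mul, ← Matrix.mulVec_mulVec, spTrans_mulVec, map_add, map_smul, LinearMap.add_apply,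
      LinearMap.smul_apply, smul_eq_mul, beta_self, b2, bxz2, mul_zero, add_zero]
    match_scalars <;> ring
  -- all scalars
  have hxC : x ∈ C := by
    obtain ⟨j, hji⟩ := exists_ne i
    obtain ⟨w, hw, hwx⟩ : ∃ w ∈ D j, β x w ≠ 0 := by
      by_contra hcon; push Not at hcon; exact hx0 (hnd hji.symm x hxi hcon)
    have hsquare : ∀ e : F, spTrans x (c₀ * (e * e)) ∈ M := by
      intro e
      rcases eq_or_ne e 0 with rfl | he
      · rw [mul_zero, mul_zero, show spTrans x (0 : F) = 1 from gl_ext fun v => by simp [spTrans_mulVec]]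
        exact M.one_mem
      obtain ⟨n, hn, hnv⟩ := hscaleN hji.symm x hxi w hw hwx e he
      have hnx : (n : Mat) *ᵥ x = e • x := by
        rw [hnv, beta_self, mul_assoc, inv_mul_cancel₀ hwx]
        match_scalars <;> ring
      have h := M.mul_mem (M.mul_mem (hHM hn) hT) (M.inv_mem (hHM hn))
      rw [conj_spTrans hn.2, hnx, spTrans_smul] at h
      convert h using 2
      ring
    intro d
    have e : spTrans x d = spTrans x (c₀ * (((d / c₀ + 1) / 2) * ((d / c₀ + 1) / 2))) *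
        (spTrans x (c₀ * (((d / c₀ - 1) / 2) * ((d / c₀ - 1) / 2))))⁻¹ := by
      rw [eq_mul_inv_iff_mul_eq]
      refine gl_ext fun v => ?_
      simp only [Units.val_mul, ← Matrix.mulVec_mulVec, spTrans_mulVec, map_add, map_smul, LinearMap.add_apply,
        LinearMap.smul_apply, smul_eq_mul, beta_self, mul_zero, add_zero]
      match_scalars
      · simp
      · field_simp; ring
    rw [e]
    exact M.mul_mem (hsquare _) (M.inv_mem (hsquare _))
  obtain ⟨j, hji⟩ := exists_ne i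
  -- the members are covered
  have hmove : ∀ (i j : Fin 2), i ≠ j → ∀ u ∈ D i, ∀ u' ∈ D i, u ≠ 0 → u' ∉ Submodule.span F {u} →
      ∀ y : V, ∃ h ∈ Cfsg.Geo.decompositionStabilizer D ⊓ Cfsg.spGL m F, (h : Mat) *ᵥ u = u' ∧
        comp hD i ((h : Mat) *ᵥ y) - comp hD i y ∈ Submodule.span F {u' - u} := by
    intro i j hij u hu u' hu' hu0 hne y
    obtain ⟨w, hw, hw1, hw2⟩ := hfind hij.symm u ((Submodule.span F {u' - u}).comap (D i).subtype)
      (fun hu'' hmem => by
        obtain ⟨a', ha'⟩ := Submodule.mem_span_singleton.mp hmem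
        have ha'' : a' • (u' - u) = u := ha'
        have : a' ≠ 0 := fun h => hu0 (by rw [← ha'', h, zero_smul])
        refine hne (Submodule.mem_span_singleton.mpr ⟨a'⁻¹ + 1, ?_⟩)
        rw [add_smul, one_smul]
        conv_lhs => arg 1; rw [← ha'', smul_smul, inv_mul_cancel₀ this, one_smul]
        abel) hu
    have h0 : β (u' - u) w = 0 := by
      rw [beta_swap w, hw2 ⟨_, sub_mem hu' hu⟩ (Submodule.mem_span_singleton_self _), neg_zero]
    refine ⟨spX (u' - u) w (-1), spX_stab hts hij (sub_mem hu' hu) hw h0 _, ?_, ?_⟩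
    · rw [spX_mulVec h0, hts i u hu _ (sub_mem hu' hu), beta_swap w u, hw1]
      module
    · rw [spX_mulVec h0, map_add, map_smul, map_add, map_smul, map_smul, comp_same hD (sub_mem hu' hu),
        comp_other hD hij.symm hw, smul_zero, add_zero, add_sub_cancel_left, smul_smul]
      exact Submodule.smul_mem _ _ (Submodule.mem_span_singleton_self _)
  have hDi : ∀ v ∈ D i, v ∈ C := by
    intro v hv
    by_cases hvx : v ∈ Submodule.span F {x}
    · obtain ⟨a', rfl⟩ := Submodule.mem_span_singleton.mp hvx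
      exact hCsmul x hxC a'
    · obtain ⟨h, hh, he, -⟩ := hmove i j hji.symm x hxi v hv hx0 hvx 0
      exact he ▸ hCconj h (hHM hh) x hxC
  have hCD : ∀ l, ∀ v ∈ D l, v ∈ C := by
    intro l v hv
    by_cases hl : l = i
    · exact hDi v (hl ▸ hv)
    · have hswap : Equiv.swap 0 1 l = i := by
        rcases (show l = 0 ∨ l = 1 by omega) with rfl | rfl <;> rcases (show i = 0 ∨ i = 1 by omega) with hi | hi <;>
          first | exact absurd hi.symm hl | (rw [hi]; first | exact Equiv.swap_apply_left _ _ | exact Equiv.swap_apply_right _ _)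
      have hs2 := hsmap l v hv
      rw [hswap] at hs2
      have := hCconj _ (M.inv_mem (hHM hs)) _ (hDi _ hs2)
      rwa [gl_inv_mulVec] at this
  -- transvections centred in the members generate everything
  have h01 : (0 : Fin 2) ≠ 1 := by decide
  refine spGL_le_of_spTrans M fun v c => (show v ∈ C from ?_) c
  set u := comp hD 0 v with hu
  set w := comp hD 1 v with hw
  have hv : v = u + w := (hsum h01 v).symm
  by_cases hu0 : u = 0
  · exact hCD 1 v (by rw [hv, hu0, zero_add]; exact comp_mem hD 1 v)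
  by_cases hw0 : w = 0
  · exact hCD 0 v (by rw [hv, hw0, add_zero]; exact comp_mem hD 0 v)
  set μ := β u w
  by_cases hμ : μ = 0
  · -- `v` is reached from a vector with non-zero value
    obtain ⟨u₁, hu₁, hu₁1, -⟩ := hfind h01 w ⊥ (fun hw' h => hw0 (congrArg Subtype.val ((Submodule.mem_bot F).mp h)))
      (comp_mem hD 1 v)
    have hmix : u₁ + w ∈ C := by
      have key := hCconj _ (hCD 0 u₁ hu₁ (-1)) w (hCD 1 w (comp_mem hD 1 v))
      rw [spTrans_mulVec, beta_swap u₁ w, hu₁1, neg_mul_neg, one_mul, one_smul, add_comm] at key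
      exact key
    have h4 := hCconj _ (hmix (-1)) (u - u₁) (hCD 0 _ (sub_mem (comp_mem hD 0 v) hu₁))
    rw [spTrans_mulVec, map_sub, LinearMap.sub_apply, map_add, map_add, hts 0 u (comp_mem hD 0 v) u₁ hu₁,
      hts 0 u₁ hu₁ u₁ hu₁, hu₁1, zero_add, zero_add, show β u w = 0 from hμ, zero_sub, neg_mul_neg, one_mul,
      one_smul] at h4
    rw [hv]
    convert h4 using 1
    abel
  · have := hCconj _ (hCD 0 u (comp_mem hD 0 v) (-μ⁻¹)) w (hCD 1 w (comp_mem hD 1 v))
    rw [spTrans_mulVec, beta_swap u w, neg_mul_neg, inv_mul_cancel₀ hμ, one_smul] at this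
    rw [hv, add_comm]; exact this

end Cfsg.Agent.H99.SpFour
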