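import Cfsg.Agent.H98.SpSubfieldBase
import Mathlib.FieldTheory.IntermediateField.Adjoin.Basic

set_option autoImplicit false

/-!
Overgroups of the subfield subgroup of the four dimensional symplectic group in odd characteristic: a root
element with a scalar outside the subfield generates everything.
-/

namespace Cfsg.Agent.H99.SpFour

open Cfsg.Agent.H98
open scoped Matrix

variable {m : ℕ} {F : Type*} [Field F]

local notation "V" => (Fin m ⊕ Fin m → F)
local notation "Mat" => Matrix (Fin m ⊕ Fin m) (Fin m ⊕ Fin m) F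
local notation "β" => Cfsg.Agent.H2.sympBilin m F

/-- The transvection at a sum of two vectors. -/
theorem spTrans_split (x z : V) (c : F) :
    spTrans (x + z) c = spX x z c * spTrans z c * spTrans x c := by
  rw [spX, ← spTrans_inv, ← spTrans_inv]; group

variable {F₀ : Subfield F}
variable [Fintype F] [NeZero m] {r : ℕ}

/-- A short root element with a scalar outside the subfield generates everything. -/
theorem spGL_le_of_new_scalar (h2 : (2 : F) ≠ 0) (hr : r.Prime)
    (hcard : Fintype.card F = Nat.card F₀ ^ r) {M : Subgroup (GL (Fin m ⊕ Fin m) F)}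
    (hle : subGroupF (Fin m ⊕ Fin m) F₀ ⊓ Cfsg.spGL m F ≤ M) (hsp : M ≤ Cfsg.spGL m F) {l k : Fin m} (hlk : l ≠ k)
    {c : F} (hc : c ∉ F₀) (hmem : spX (eV l) (eV k) c ∈ M) : Cfsg.spGL m F ≤ M := by
  classical
  have hee : ∀ a b : Fin m, β (eV a : V) (eV b) = 0 := fun a b => by rw [beta_eV]; simp [eV]
  have hef : ∀ a b : Fin m, a ≠ b → β (eV a : V) (fV b) = 0 := fun a b h => by rw [beta_eV, fV]; simp [h]
  have hfe : ∀ a b : Fin m, a ≠ b → β (fV a : V) (eV b) = 0 := fun a b h => by rw [beta_fV, eV]; simp [h]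
  have hfe1 : ∀ a : Fin m, β (fV a : V) (eV a) = 1 := fun a => by rw [beta_fV, eV]; simp
  have hef1 : ∀ a : Fin m, β (eV a : V) (fV a) = -1 := fun a => by rw [beta_eV, fV]; simp
  have hconj : ∀ (g : GL (Fin m ⊕ Fin m) F), g ∈ M → ∀ (x z : V) (d : F), spX x z d ∈ M →
      spX ((g : Mat) *ᵥ x) ((g : Mat) *ᵥ z) d ∈ M := fun g hg x z d h => by
    rw [← conj_spX (hsp hg)]; exact M.mul_mem (M.mul_mem hg h) (M.inv_mem hg)
  have hconjT : ∀ (g : GL (Fin m ⊕ Fin m) F), g ∈ M → ∀ (x : V) (d : F), spTrans x d ∈ M →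
      spTrans ((g : Mat) *ᵥ x) d ∈ M := fun g hg x d h => by
    rw [← conj_spTrans (hsp hg)]; exact M.mul_mem (M.mul_mem hg h) (M.inv_mem hg)
  have htrans : ∀ v w : V, IsRatVec F₀ v → v ≠ 0 → IsRatVec F₀ w → w ≠ 0 → ∀ d : F, spTrans v d ∈ M →
      spTrans w d ∈ M := fun v w hv hv0 hw hw0 d h => by
    obtain ⟨g, hg, hgv⟩ := exists_rat_move hv hw hv0 hw0
    rw [← hgv]; exact hconjT g (hle hg) v d h
  have hsym : ∀ (a b : Fin m) (d : F), spX (eV a) (eV b) d ∈ M → spX (eV b) (eV a) d ∈ M := fun a b d h => by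
    rwa [spX_comm_sym (hee b a)]
  have hmixed : ∀ (a b : Fin m) (d : F), a ≠ b → spX (eV a) (eV b) d ∈ M → spX (fV a) (eV b) d ∈ M := by
    intro a b d hab h
    have hne : β (eV a : V) (fV a) ≠ 0 := by rw [hef1]; simp
    have := hconj _ (hle (spTrans_rat (isRat_sub (isRat_fV a) (isRat_eV a))
      (inv_mem (beta_rat (F₀ := F₀) (isRat_eV a) (isRat_fV a))))) _ _ d h
    rwa [spTrans_move hne, spTrans_mulVec _ (eV b), map_sub, hef b a hab.symm, hee, sub_zero, mul_zero, zero_smul,
      add_zero] at this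
  -- rational multiples
  have hscale : ∀ lam ∈ F₀, ∀ d : F, spX (eV l) (eV k) d ∈ M → spX (eV l) (eV k) (lam * d) ∈ M := by
    intro lam hlam d h
    rcases eq_or_ne lam 0 with rfl | hl0
    · rw [zero_mul]; exact hle (spX_rat (isRat_eV _) (isRat_eV _) (zero_mem _))
    have h1 : β (eV l : V) (fV l) ≠ 0 := by rw [hef1]; simp
    have h3 : β (fV l : V) (lam • eV l) ≠ 0 := by rw [map_smul, hfe1, smul_eq_mul, mul_one]; exact hl0
    set g := spTrans (lam • eV l - fV l) (β (fV l : V) (lam • eV l))⁻¹ *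
      spTrans (fV l - eV l) (β (eV l : V) (fV l))⁻¹ with hg
    have hgM : g ∈ M := hle (Subgroup.mul_mem _
      (spTrans_rat (isRat_sub (isRat_smul hlam (isRat_eV _)) (isRat_fV _))
        (inv_mem (beta_rat (isRat_fV _) (isRat_smul hlam (isRat_eV _)))))
      (spTrans_rat (isRat_sub (isRat_fV _) (isRat_eV _)) (inv_mem (beta_rat (isRat_eV _) (isRat_fV _)))))
    have hgl : (g : Mat) *ᵥ eV l = lam • eV l := by
      rw [hg, Units.val_mul, ← Matrix.mulVec_mulVec, spTrans_move h1, spTrans_move h3]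
    have hgk : (g : Mat) *ᵥ eV k = eV k := by
      rw [hg, Units.val_mul, ← Matrix.mulVec_mulVec, spTrans_mulVec (fV l - eV l)]
      have e1 : β (eV k : V) (fV l - eV l) = 0 := by rw [map_sub, hef _ _ hlk.symm, hee, sub_zero]
      have e2 : β (eV k : V) (lam • eV l - fV l) = 0 := by
        rw [map_sub, map_smul, hef _ _ hlk.symm, hee, smul_zero, sub_zero]
      rw [e1, mul_zero, zero_smul, add_zero, spTrans_mulVec, e2, mul_zero, zero_smul, add_zero]
    have := hconj g hgM _ _ d h
    rwa [hgl, hgk, spX_smul_left (hee l k)] at this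
  -- long gives short
  have hAB : ∀ d : F, spTrans (eV l) d ∈ M → spX (eV l) (eV k) d ∈ M := by
    intro d hd
    have hne : (eV l : V) + eV k ≠ 0 := fun h => by simpa [eV, hlk] using congrFun h (.inl l)
    have hs := htrans _ _ (isRat_eV l) (eV_ne_zero l) (isRat_add (isRat_eV l) (isRat_eV k)) hne d hd
    have hk := htrans _ _ (isRat_eV l) (eV_ne_zero l) (isRat_eV k) (eV_ne_zero k) d hd
    rw [spTrans_split] at hs
    exact (Subgroup.mul_mem_cancel_right M hk).mp ((Subgroup.mul_mem_cancel_right M hd).mp hs)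
  -- short gives the squares among the long ones
  have hsq : ∀ d : F, spX (eV l) (eV k) d ∈ M → spTrans (eV l) (d * d) ∈ M := by
    intro d hd
    have h1 := hconj _ (hle (spTrans_rat (F₀ := F₀) (isRat_fV k) (one_mem _))) _ _ d hd
    have e1 : (spTrans (fV k : V) (1 : F) : Mat) *ᵥ eV l = eV l := by
      rw [spTrans_mulVec, hef l k hlk, mul_zero, zero_smul, add_zero]
    have e2 : (spTrans (fV k : V) (1 : F) : Mat) *ᵥ eV k = eV k + (-1 : F) • fV k := by
      rw [spTrans_mulVec, hef1, one_mul]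
    rw [e1, e2] at h1
    have h2 : spX (eV l) ((-1 : F) • fV k) d ∈ M := by
      have hmix := hmixed k l d hlk.symm (hsym l k d hd)
      have hneg : spX (eV l) (fV k) (-d) ∈ M := by
        rw [← spX_inv (hef l k hlk)]
        exact M.inv_mem (by rw [spX_comm_sym (hef l k hlk)]; exact hmix)
      rwa [spX_smul_right (hef l k hlk), neg_one_mul]
    have h3 := M.mul_mem hd h2
    rw [spX_add_right (hee l k) (by rw [map_smul, hef l k hlk, smul_zero])] at h3
    have h4 := (Subgroup.mul_mem_cancel_left M h1).mp h3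
    have h5 := M.inv_mem h4
    rw [spTrans_inv] at h5
    convert h5 using 2
    rw [map_smul, LinearMap.smul_apply, hfe1, smul_eq_mul]; ring
  -- the scalars form an algebra
  have hadd : ∀ d d' : F, spX (eV l) (eV k) d ∈ M → spX (eV l) (eV k) d' ∈ M →
      spX (eV l) (eV k) (d + d') ∈ M := fun d d' hd hd' => by
    rw [← spX_add (hee l k)]; exact M.mul_mem hd hd'
  let Lam : Subalgebra F₀ F :=
    { carrier := {d | spX (eV l) (eV k) d ∈ M}
      add_mem' := fun {d d'} hd hd' => hadd d d' hd hd'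
      mul_mem' := fun {d d'} hd hd' => by
        have h1 := M.mul_mem (M.mul_mem (hsq _ (hadd d d' hd hd')) (M.inv_mem (hsq d hd)))
          (M.inv_mem (hsq d' hd'))
        rw [spTrans_inv, spTrans_inv, spTrans_add, spTrans_add] at h1
        have h3 := hscale (2 : F)⁻¹ (inv_mem (by
          rw [← one_add_one_eq_two]; exact add_mem (one_mem F₀) (one_mem F₀))) _ (hAB _ h1)
        rw [show (2 : F)⁻¹ * ((d + d') * (d + d') + -(d * d) + -(d' * d')) = d * d' by
          field_simp; ring] at h3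
        exact h3
      algebraMap_mem' := fun d => hle (spX_rat (isRat_eV l) (isRat_eV k) d.2) }
  have htop : Lam = ⊤ := by
    have hdim : (Module.finrank F₀ F).Prime := by
      haveI := Fintype.ofFinite F₀
      have h1 : Fintype.card F = Fintype.card F₀ ^ Module.finrank F₀ F := Module.card_eq_pow_finrank
      rw [hcard, Nat.card_eq_fintype_card] at h1
      rwa [← Nat.pow_right_injective (Fintype.one_lt_card (α := F₀)) h1]
    let K : IntermediateField F₀ F := Lam.toIntermediateField' (Subalgebra.isField_of_algebraic Lam)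
    haveI := IntermediateField.isSimpleOrder_of_finrank_prime F₀ F hdim
    rcases eq_bot_or_eq_top K with hK | hK
    · exfalso
      have hcK : c ∈ K := hmem
      rw [hK, IntermediateField.mem_bot] at hcK
      obtain ⟨a, ha⟩ := hcK
      exact hc (ha ▸ a.2)
    · exact eq_top_iff.mpr fun a _ => (show a ∈ K from hK ▸ IntermediateField.mem_top)
  have hX : ∀ d : F, spX (eV l) (eV k) d ∈ M := fun d => (show d ∈ Lam from htop ▸ Algebra.mem_top)
  have hT : ∀ d : F, spTrans (eV l) d ∈ M := by
    intro d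
    have e : d = ((d + 1) / 2) * ((d + 1) / 2) + -(((d - 1) / 2) * ((d - 1) / 2)) := by field_simp; ring
    rw [e, ← spTrans_add, ← spTrans_inv]
    exact M.mul_mem (hsq _ (hX _)) (M.inv_mem (hsq _ (hX _)))
  let C : Set V := {v | ∀ d, spTrans v d ∈ M}
  have hrat : ∀ v : V, IsRatVec F₀ v → v ≠ 0 → v ∈ C := fun v hv hv0 d =>
    htrans _ _ (isRat_eV l) (eV_ne_zero l) hv hv0 d (hT d)
  refine spGL_le_of_spTrans M fun v d => (sp_closed_univ (C := C) (fun k v hv d => ?_) (fun u hu v hv huv d => ?_)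
    (fun d => by rw [spTrans_zero_vec]; exact M.one_mem) (fun a => hrat _ (isRat_eV a) (eV_ne_zero a))
    (fun a => hrat _ (isRat_fV a) (fV_ne_zero a))
    (fun a b hab => hrat _ (isRat_add (isRat_eV a) (isRat_eV b))
      fun h => by simpa [eV, hab] using congrFun h (.inl a))
    (fun a b hab => hrat _ (isRat_add (isRat_fV a) (isRat_fV b))
      fun h => by simpa [fV, hab] using congrFun h (.inr a)) v) d
  · rw [spTrans_smul]; exact hv _
  · have := hconjT _ (hv (β u v)⁻¹) u d (hu d)
    rwa [spTrans_mulVec, inv_mul_cancel₀ huv, one_smul] at this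

end Cfsg.Agent.H99.SpFour
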