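import Cfsg.Agent.H99.SpFour.UnitaryMove

set_option autoImplicit false
set_option linter.unusedSectionVars false

/-!
For odd `q ≥ 5` the normaliser of a unitary group over the quadratic extension is maximal in the four
dimensional symplectic group.
-/

namespace Cfsg.Agent.H99.SpFour

open Cfsg.Agent.H98 Cfsg.Agent.H98.SU2
open scoped Matrix

/-- A commutator criterion for root subgroups of a two dimensional special linear group. -/
theorem commutator_mem {G : Type*} [Group G] (C : Subgroup G) {a h : G}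
    (S : Set G) (hS : ∀ g ∈ S, g ∈ Subgroup.normalizer (C : Set G) ∧ g * a * g⁻¹ * a⁻¹ ∈ C)
    (hh : h ∈ Subgroup.closure S) : h * a * h⁻¹ * a⁻¹ ∈ C := by
  suffices H : h ∈ Subgroup.normalizer (C : Set G) ∧ h * a * h⁻¹ * a⁻¹ ∈ C from H.2
  induction hh using Subgroup.closure_induction with
  | mem g hg => exact hS g hg
  | one => exact ⟨Subgroup.one_mem _, by simp⟩
  | mul x y _ _ hx hy =>
    refine ⟨Subgroup.mul_mem _ hx.1 hy.1, ?_⟩
    rw [show x * y * a * (x * y)⁻¹ * a⁻¹ = x * (y * a * y⁻¹ * a⁻¹) * x⁻¹ * (x * a * x⁻¹ * a⁻¹) by group]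
    exact C.mul_mem ((Subgroup.mem_normalizer_iff.mp hx.1 _).mp hy.2) hx.2
  | inv x _ hx =>
    refine ⟨Subgroup.inv_mem _ hx.1, ?_⟩
    have h := (Subgroup.mem_normalizer_iff.mp (Subgroup.inv_mem _ hx.1) _).mp (C.inv_mem hx.2)
    convert h using 1
    group

/-- Conjugating a commutator by commuting factors. -/
theorem comm_conj_aux {G : Type*} [Group G] {T T' a b c : G} (h1 : Commute T a) (h2 : Commute T b)
    (h3 : Commute T c) (h4 : Commute T' a) (h5 : Commute T' b) (h6 : Commute b c) :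
    T' * c * (c⁻¹ * a * (T * b) * (c⁻¹ * a)⁻¹ * (T * b)⁻¹) * (T' * c)⁻¹ = a * b * a⁻¹ * b⁻¹ := by
  have e1 : c⁻¹ * a * (T * b) = T * (c⁻¹ * a * b) := by
    rw [← mul_assoc, ← ((h3.inv_right).mul_right h1).eq]; group
  have k1 : c⁻¹ * a * (T * b) * (c⁻¹ * a)⁻¹ * (T * b)⁻¹ = T * (c⁻¹ * a * b * a⁻¹ * c * b⁻¹) * T⁻¹ := by
    rw [e1]; group
  have k2 : Commute T (c⁻¹ * a * b * a⁻¹ * c * b⁻¹) :=
    (((((h3.inv_right).mul_right h1).mul_right h2).mul_right h1.inv_right).mul_right h3).mul_right h2.inv_right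
  have k3 : Commute T' (a * b * a⁻¹ * b⁻¹) := ((h4.mul_right h5).mul_right h4.inv_right).mul_right h5.inv_right
  rw [k1, k2.eq, mul_inv_cancel_right,
    show c⁻¹ * a * b * a⁻¹ * c * b⁻¹ = c⁻¹ * a * b * a⁻¹ * (c * b⁻¹) by group, ← (h6.inv_left).eq,
    show T' * c * (c⁻¹ * a * b * a⁻¹ * (b⁻¹ * c)) * (T' * c)⁻¹ = T' * (a * b * a⁻¹ * b⁻¹) * T'⁻¹ by group, k3.eq,
    mul_inv_cancel_right]

variable {F : Type*} [Field F] [Fintype F]

local notation "V" => (Fin 2 ⊕ Fin 2 → F)
local notation "Mat" => Matrix (Fin 2 ⊕ Fin 2) (Fin 2 ⊕ Fin 2) F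
local notation "β" => Cfsg.Agent.H2.sympBilin 2 F

attribute [-simp] Cfsg.Agent.H2.sympBilin_apply

section
variable {j : (Fin 2 ⊕ Fin 2 → F) →ₗ[F] (Fin 2 ⊕ Fin 2 → F)} {ν : F}
variable (H : SJ₂ j ν)
include H

/-- A symplectic map between two hyperbolic frames, linear or semilinear over the quadratic field. -/
theorem SJ₂.exists_frame_map {v f w e : V} (hv : qf j v = 0) (hf : qf j f = 0) (h1 : β v f = 1)
    (h2 : β v (j f) = 0) (hw : qf j w = 0) (he : qf j e = 0) (he1 : β w e = 1) (he2 : β w (j e) = 0)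
    {δ : F} (hδ : δ * δ = 1) {p r : F} (hpr : p ≠ 0 ∨ r ≠ 0) :
    ∃ n ∈ Cfsg.spGL 2 F, (∀ y, (n : Mat) *ᵥ j y = δ • j ((n : Mat) *ᵥ y)) ∧
      (n : Mat) *ᵥ v = p • w + r • j w ∧ (n : Mat) *ᵥ f = (p * p - ν * (r * r))⁻¹ • (p • e + r • j e) := by
  classical
  have hν := H.nu_ne
  have hN := H.nm_ne p r hpr
  have hww : β w (j w) = 0 := hw
  have hee : β e (j e) = 0 := he
  have hjwe : β (j w) e = 0 := by rw [H.anti, he2, neg_zero]
  have hjj : β (j w) (j e) = -ν := by rw [H.jj, he1, mul_one]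
  let A : V →ₗ[F] V := p • LinearMap.id + r • j
  let P : V →ₗ[F] V := ((Cfsg.Agent.H2.sympBilin 2 F).flip f).smulRight w +
    ((-(δ * ν⁻¹)) • (Cfsg.Agent.H2.sympBilin 2 F).flip (j f)).smulRight (j w)
  let Q : V →ₗ[F] V := ((Cfsg.Agent.H2.sympBilin 2 F) v).smulRight e +
    ((-(δ * ν⁻¹)) • (Cfsg.Agent.H2.sympBilin 2 F) (j v)).smulRight (j e)
  let L : V →ₗ[F] V := A ∘ₗ (P + (p * p - ν * (r * r))⁻¹ • Q)
  have hP : ∀ y, P y = β y f • w + (-(δ * ν⁻¹) * β y (j f)) • j w := fun y => rfl
  have hQ : ∀ y, Q y = β v y • e + (-(δ * ν⁻¹) * β (j v) y) • j e := fun y => rfl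
  have hL : ∀ y, L y = p • (P y + (p * p - ν * (r * r))⁻¹ • Q y) +
      r • j (P y + (p * p - ν * (r * r))⁻¹ • Q y) := fun y => rfl
  have hA : ∀ x y, β (p • x + r • j x) (p • y + r • j y) = (p * p - ν * (r * r)) * β x y := fun x y => by
    simp only [map_add, map_smul, LinearMap.add_apply, LinearMap.smul_apply, smul_eq_mul, H.anti x y, H.jj]
    ring
  have hjv : ∀ z, β z (j v) = - β (j v) z := fun z => beta_swap (j v) z
  have hexp : ∀ x y, β x y = β x f * β v y - ν⁻¹ * (β x (j f) * β (j v) y) -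
      β v x * β y f + ν⁻¹ * (β (j v) x * β y (j f)) := fun x y => by
    conv_lhs => arg 1; arg 2; rw [H.expand hv hf h1 h2 x]
    simp only [map_add, map_smul, LinearMap.add_apply, LinearMap.smul_apply, smul_eq_mul, beta_swap y f,
      beta_swap y (j f)]
    ring
  have hiso : ∀ x y, β (L x) (L y) = β x y := fun x y => by
    rw [hL, hL, hA, hexp x y, hP, hP, hQ, hQ]
    simp only [map_add, map_smul, LinearMap.add_apply, LinearMap.smul_apply, smul_eq_mul, beta_self, hww, hee, he1,
      he2, hjwe, hjj, beta_swap w (j w), beta_swap e (j e), beta_swap w e, beta_swap w (j e), beta_swap (j w) e,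
      beta_swap (j w) (j e)]
    have hk : (p * p - ν * (r * r)) * (p * p - ν * (r * r))⁻¹ = 1 := mul_inv_cancel₀ hN
    have hνi : ν * ν⁻¹ = 1 := mul_inv_cancel₀ hν
    generalize (p * p - ν * (r * r))⁻¹ = k at hk ⊢
    linear_combination (β x f * β v y - δ * δ * ν⁻¹ * (β x (j f) * β (j v) y) -
        (β y f * β v x - δ * δ * ν⁻¹ * (β y (j f) * β (j v) x))) * hk -
      (p * p - ν * (r * r)) * k * δ * δ * ν⁻¹ * (β x (j f) * β (j v) y - β y (j f) * β (j v) x) * hνi -
      ν⁻¹ * (β x (j f) * β (j v) y - β y (j f) * β (j v) x) * hδ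
  have hPj : ∀ y, P (j y) = δ • j (P y) := fun y => by
    rw [hP, hP, map_add, map_smul, map_smul, H.sq, H.anti y f, H.jj y f]
    match_scalars <;> field_simp <;> first | linear_combination β y (j f) * hδ | linear_combination -(β y (j f)) * hδ | ring
  have hQj : ∀ y, Q (j y) = δ • j (Q y) := fun y => by
    have e1 : β v (j y) = - β (j v) y := by rw [H.anti, neg_neg]
    rw [hQ, hQ, map_add, map_smul, map_smul, H.sq, e1, H.jj v y]
    match_scalars <;> field_simp <;> first | linear_combination β (j v) y * hδ | linear_combination -(β (j v) y) * hδ | ring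
  have hinj : Function.Injective L := by
    rw [injective_iff_map_eq_zero]
    intro y hy
    exact (Cfsg.Agent.H2.sympBilin_nondegenerate 2 F).1 y fun u => by rw [← hiso, hy]; simp
  refine ⟨glOfEquiv (LinearEquiv.ofInjectiveEndo L hinj), mem_spGL.mpr fun a b => ?_, fun y => ?_, ?_, ?_⟩
  · simp only [glOfEquiv_mulVec, LinearEquiv.coe_ofInjectiveEndo]; exact hiso a b
  · simp only [glOfEquiv_mulVec, LinearEquiv.coe_ofInjectiveEndo]
    rw [hL, hL, hPj, hQj]
    simp only [map_add, map_smul]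
    module
  · simp only [glOfEquiv_mulVec, LinearEquiv.coe_ofInjectiveEndo]
    rw [hL, hP, hQ, h1, h2, beta_self, show β (j v) v = 0 by rw [beta_swap v (j v), show β v (j v) = 0 from hv, neg_zero]]
    simp
  · simp only [glOfEquiv_mulVec, LinearEquiv.coe_ofInjectiveEndo]
    rw [hL, hP, hQ, beta_self, show β f (j f) = 0 from hf, h1, show β (j v) f = 0 by rw [H.anti, h2, neg_zero]]
    simp only [mul_zero, zero_smul, add_zero, zero_add, one_smul, map_smul]
    module

section
variable {M : Subgroup (GL (Fin 2 ⊕ Fin 2) F)} (hsp : M ≤ Cfsg.spGL 2 F)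
  (hM : ∀ g ∈ Cfsg.spGL 2 F, NormM j g → g ∈ M)
include hsp hM

/-- A root group inside the radical at a singular point. -/
theorem SJ₂.abel_root {v : V} (hv0 : v ≠ 0) (hv : qf j v = 0) {A B : F} (hAB : A ≠ 0 ∨ B ≠ 0)
    (hmem : spTrans v A * spX v (j v) B ∈ M) : ∀ c : F, spTrans v c ∈ M := by
  obtain ⟨f, hf, h1, h2⟩ := H.partner hv0 hv
  have hvv : β v (j v) = 0 := hv
  have hvv' : β (j v) v = 0 := by rw [beta_swap v (j v), hvv, neg_zero]
  have hadd : ∀ A B A' B' : F, spTrans v A * spX v (j v) B ∈ M → spTrans v A' * spX v (j v) B' ∈ M →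
      spTrans v (A + A') * spX v (j v) (B + B') ∈ M := fun A B A' B' h h' => by
    convert M.mul_mem h h' using 1
    refine gl_ext fun y => ?_
    simp only [Units.val_mul, ← Matrix.mulVec_mulVec, spTrans_mulVec, spX_mulVec hvv, map_add, map_smul,
      LinearMap.add_apply, LinearMap.smul_apply, smul_eq_mul, beta_self, hvv, hvv', mul_zero, add_zero]
    module
  have hneg : ∀ A B : F, spTrans v A * spX v (j v) B ∈ M → spTrans v (-A) * spX v (j v) (-B) ∈ M := fun A B h => by
    convert M.inv_mem h using 1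
    symm
    refine inv_eq_of_mul_eq_one_right (gl_ext fun y => ?_)
    simp only [Units.val_mul, ← Matrix.mulVec_mulVec, spTrans_mulVec, spX_mulVec hvv, map_add, map_smul,
      LinearMap.add_apply, LinearMap.smul_apply, smul_eq_mul, beta_self, hvv, hvv', mul_zero, add_zero,
      Units.val_one, Matrix.one_mulVec]
    module
  have hconj : ∀ (p r A B : F), (p ≠ 0 ∨ r ≠ 0) → spTrans v A * spX v (j v) B ∈ M →
      spTrans v (A * (p * p + ν * (r * r)) + 4 * ν * (p * r) * B) *
        spX v (j v) (A * (p * r) + B * (p * p + ν * (r * r))) ∈ M := by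
    intro p r A B hpr h
    obtain ⟨n, hn, hnj, hnv, -⟩ := H.exists_frame_map hv hf h1 h2 hv hf h1 h2 (δ := 1) (mul_one 1) hpr
    have hnjv : (n : Mat) *ᵥ j v = (r * ν) • v + p • j v := by
      rw [hnj, hnv, map_add, map_smul, map_smul, H.sq]; module
    have hnM := hM n hn ⟨0, 1, fun y => by rw [hnj]; module⟩
    have h' := M.mul_mem (M.mul_mem hnM h) (M.inv_mem hnM)
    rw [show n * (spTrans v A * spX v (j v) B) * n⁻¹ = (n * spTrans v A * n⁻¹) * (n * spX v (j v) B * n⁻¹) by group,
      conj_spTrans hn, conj_spX hn, hnv, hnjv] at h'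
    convert M.mul_mem (M.inv_mem (hM _ (tau_mem v (A * (r * r) + 2 * (B * (p * r))))
      (H.tau_norm hv (A * (r * r) + 2 * (B * (p * r)))))) h' using 1
    rw [eq_inv_mul_iff_mul_eq]
    refine gl_ext fun y => ?_
    have e : β (p • v + r • j v) ((r * ν) • v + p • j v) = 0 := by simp [hvv, hvv', beta_self]
    simp only [Units.val_mul, ← Matrix.mulVec_mulVec, spTrans_mulVec, spX_mulVec hvv, spX_mulVec e, H.tau_mulVec hv,
      map_add, map_smul, LinearMap.add_apply, LinearMap.smul_apply, smul_eq_mul, beta_self, hvv, hvv', mul_zero,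
      add_zero]
    match_scalars <;> ring
  have hscal : ∀ s A B : F, spTrans v A * spX v (j v) B ∈ M → spTrans v (s * A) * spX v (j v) (s * B) ∈ M := by
    intro s A B h
    have hsq : ∀ p : F, spTrans v (p * p * A) * spX v (j v) (p * p * B) ∈ M := by
      intro p
      rcases eq_or_ne p 0 with rfl | hp
      · have := hadd _ _ _ _ h (hneg _ _ h)
        simpa using this
      · have := hconj p 0 A B (Or.inl hp) h
        convert this using 3 <;> ring
    have h2' := H.two
    have := hadd _ _ _ _ (hsq ((s + 1) / 2)) (hneg _ _ (hsq ((s - 1) / 2)))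
    convert this using 3 <;> (field_simp; ring)
  intro c
  have hT := hconj 1 1 A B (Or.inl one_ne_zero) hmem
  set A' := A * (1 * 1 + ν * (1 * 1)) + 4 * ν * (1 * 1) * B with hA'
  set B' := A * (1 * 1) + B * (1 * 1 + ν * (1 * 1)) with hB'
  have hΔ : A * B' - B * A' ≠ 0 := by
    have e : A * B' - B * A' = A * A - 4 * ν * (B * B) := by rw [hA', hB']; ring
    rw [e]
    intro h
    rcases eq_or_ne B 0 with rfl | hB
    · rcases hAB with hA | hB
      · exact mul_ne_zero hA hA (by linear_combination h)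
      · exact hB rfl
    · have h2' := H.two
      exact H.not_sq (A / (2 * B)) (by field_simp; linear_combination -h)
  have := hadd _ _ _ _ (hscal (c * B' / (A * B' - B * A')) _ _ hmem)
    (hscal (-(c * B) / (A * B' - B * A')) _ _ hT)
  convert this using 1
  have eA : c = c * B' / (A * B' - B * A') * A + -(c * B) / (A * B' - B * A') * A' := by
    rw [div_mul_eq_mul_div, div_mul_eq_mul_div, ← add_div, eq_div_iff hΔ]; ring
  have eB : (0 : F) = c * B' / (A * B' - B * A') * B + -(c * B) / (A * B' - B * A') * B' := by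
    rw [div_mul_eq_mul_div, div_mul_eq_mul_div, ← add_div, eq_div_iff hΔ]; ring
  rw [← eA, ← eB, show spX v (j v) (0 : F) = 1 from gl_ext fun y => by simp [spX_mulVec hvv], mul_one]

set_option maxHeartbeats 1600000 in
/-- An element outside the normaliser puts a whole transvection group in the subgroup. -/
theorem SJ₂.exists_root {g : GL (Fin 2 ⊕ Fin 2) F} (hg : g ∈ M) (hgn : ¬ NormM j g) :
    ∃ z : V, z ≠ 0 ∧ qf j z = 0 ∧ ∀ c : F, spTrans z c ∈ M := by
  classical
  obtain ⟨k, hk, hkn, w, hw0, hw, hkw⟩ := H.exists_sing_move hsp hM hg hgn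
  have hν := H.nu_ne
  have hiso := mem_spGL.mp (hsp hk)
  set v := (k : Mat) *ᵥ w with hvdef
  set u := (k : Mat) *ᵥ j w with hudef
  have hv0 : v ≠ 0 := fun h => hw0 (gl_mulVec_injective k (h.trans (Matrix.mulVec_zero _).symm))
  have hvv : β v (j v) = 0 := hkw
  have hvv' : β (j v) v = 0 := by rw [beta_swap v (j v), hvv, neg_zero]
  have hww : β w (j w) = 0 := hw
  have huv : β u v = 0 := by rw [hudef, hvdef, hiso, beta_swap w (j w), hww, neg_zero]
  have hjv0 : j v ≠ 0 := fun h => hv0 (H.free 0 v (by rw [zero_smul]; exact h))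
  have hqjv : qf j (j v) = 0 := by rw [qf_apply, H.sq, map_smul, hvv', smul_zero]
  have hK : ∀ b : F, spTrans (j v) (-b) * spTrans u b ∈ M := fun b => by
    have h := M.mul_mem (M.mul_mem hk (hM _ (tau_mem w b) (H.tau_norm hw b))) (M.inv_mem hk)
    have h' := M.mul_mem (M.inv_mem (hM _ (tau_mem v b) (H.tau_norm hkw b))) h
    convert h' using 1
    rw [tau, tau, show k * (spTrans w (-(ν * b)) * spTrans (j w) b) * k⁻¹ =
      (k * spTrans w (-(ν * b)) * k⁻¹) * (k * spTrans (j w) b * k⁻¹) by group, conj_spTrans (hsp hk),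
      conj_spTrans (hsp hk), ← hvdef, ← hudef, eq_inv_mul_iff_mul_eq]
    refine gl_ext fun y => ?_
    simp only [Units.val_mul, ← Matrix.mulVec_mulVec, spTrans_mulVec, map_add, map_smul, LinearMap.add_apply,
      LinearMap.smul_apply, smul_eq_mul, beta_self, hvv, hvv', mul_zero, add_zero]
    module
  by_cases hγ : β u (j v) = 0
  swap
  · -- the two root groups generate a special linear group
    set γ := β u (j v) with hγdef
    have hγ' : β (j v) u = -γ := beta_swap u (j v)
    let C : Subgroup (GL (Fin 2 ⊕ Fin 2) F) := Subgroup.closure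
      {g | ∃ x y : F, g = spTrans u x * spTrans (j v) y * (spTrans u x)⁻¹ * (spTrans (j v) y)⁻¹}
    have hTadd : ∀ (z : V) (x y : F), spTrans z x * spTrans z y = spTrans z (x + y) := spTrans_add
    have hgen : ∀ x y : F, spTrans u x * spTrans (j v) y * (spTrans u x)⁻¹ * (spTrans (j v) y)⁻¹ ∈ C :=
      fun x y => Subgroup.subset_closure ⟨x, y, rfl⟩
    have hCM : C ≤ M := by
      refine (Subgroup.closure_le _).mpr ?_
      rintro _ ⟨x, y, rfl⟩
      set Tv := spTrans v (-(ν * y)) with hTv
      have c1 : Tv * spTrans u x = spTrans u x * Tv := by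
        refine gl_ext fun z => ?_
        simp only [hTv, Units.val_mul, ← Matrix.mulVec_mulVec, spTrans_mulVec, map_add, map_smul, LinearMap.add_apply,
          LinearMap.smul_apply, smul_eq_mul, huv, beta_swap u v, neg_zero, mul_zero, add_zero]
        module
      have c2 : ∀ y' : F, Tv * spTrans (j v) y' = spTrans (j v) y' * Tv := fun y' => by
        refine gl_ext fun z => ?_
        simp only [hTv, Units.val_mul, ← Matrix.mulVec_mulVec, spTrans_mulVec, map_add, map_smul, LinearMap.add_apply,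
          LinearMap.smul_apply, smul_eq_mul, hvv, hvv', mul_zero, add_zero]
        module
      have hτ := hM _ (tau_mem v y) (H.tau_norm hkw y)
      have h := M.mul_mem (M.mul_mem (M.mul_mem (hK x) hτ) (M.inv_mem (hK x))) (M.inv_mem hτ)
      have hτx := hM _ (tau_mem v x) (H.tau_norm hkw x)
      have h' := M.mul_mem (M.mul_mem hτx h) (M.inv_mem hτx)
      rw [SetLike.mem_coe]
      convert h' using 1
      set T' := spTrans v (-(ν * x))
      have d1 : T' * spTrans u x = spTrans u x * T' := by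
        refine gl_ext fun z => ?_
        simp only [T', Units.val_mul, ← Matrix.mulVec_mulVec, spTrans_mulVec, map_add, map_smul, LinearMap.add_apply,
          LinearMap.smul_apply, smul_eq_mul, huv, beta_swap u v, neg_zero, mul_zero, add_zero]
        module
      have d2 : ∀ y' : F, T' * spTrans (j v) y' = spTrans (j v) y' * T' := fun y' => by
        refine gl_ext fun z => ?_
        simp only [T', Units.val_mul, ← Matrix.mulVec_mulVec, spTrans_mulVec, map_add, map_smul, LinearMap.add_apply,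
          LinearMap.smul_apply, smul_eq_mul, hvv, hvv', mul_zero, add_zero]
        module
      have c5 : Commute (spTrans (j v) y) (spTrans (j v) x) := by
        change spTrans (j v) y * spTrans (j v) x = spTrans (j v) x * spTrans (j v) y
        rw [hTadd, hTadd, add_comm]
      rw [tau, tau, ← spTrans_inv (j v) x]
      exact (comm_conj_aux c1 (c2 y) (c2 x) d1 (d2 y) c5).symm
    have hnorm : ∀ z : V, (z = u ∨ z = j v) → ∀ x : F, spTrans z x ∈ Subgroup.normalizer (C : Set _) := by
      have key : ∀ z : V, (z = u ∨ z = j v) → ∀ x : F, ∀ c ∈ C, spTrans z x * c * (spTrans z x)⁻¹ ∈ C := by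
        intro z hz x c hc
        induction hc using Subgroup.closure_induction with
        | mem c hc =>
          obtain ⟨a, b, rfl⟩ := hc
          rcases hz with rfl | rfl
          · rw [show spTrans u x * (spTrans u a * spTrans (j v) b * (spTrans u a)⁻¹ * (spTrans (j v) b)⁻¹) *
              (spTrans u x)⁻¹ = (spTrans u x * spTrans u a * spTrans (j v) b * (spTrans u x * spTrans u a)⁻¹ *
                (spTrans (j v) b)⁻¹) * (spTrans u x * spTrans (j v) b * (spTrans u x)⁻¹ * (spTrans (j v) b)⁻¹)⁻¹ by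
              group, hTadd]
            exact C.mul_mem (hgen _ _) (C.inv_mem (hgen _ _))
          · rw [show spTrans (j v) x * (spTrans u a * spTrans (j v) b * (spTrans u a)⁻¹ * (spTrans (j v) b)⁻¹) *
              (spTrans (j v) x)⁻¹ = (spTrans u a * spTrans (j v) x * (spTrans u a)⁻¹ * (spTrans (j v) x)⁻¹)⁻¹ *
                (spTrans u a * (spTrans (j v) x * spTrans (j v) b) * (spTrans u a)⁻¹ *
                  (spTrans (j v) x * spTrans (j v) b)⁻¹) by group, hTadd]
            exact C.mul_mem (C.inv_mem (hgen _ _)) (hgen _ _)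
        | one => simp
        | mul p q _ _ hp hq =>
          rw [show spTrans z x * (p * q) * (spTrans z x)⁻¹ =
            (spTrans z x * p * (spTrans z x)⁻¹) * (spTrans z x * q * (spTrans z x)⁻¹) by group]
          exact C.mul_mem hp hq
        | inv p _ hp =>
          rw [show spTrans z x * p⁻¹ * (spTrans z x)⁻¹ = (spTrans z x * p * (spTrans z x)⁻¹)⁻¹ by group]
          exact C.inv_mem hp
      intro z hz x
      refine Subgroup.mem_normalizer_iff.mpr fun c => ⟨key z hz x c, fun h => ?_⟩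
      have := key z hz (-x) _ h
      rw [← spTrans_inv] at this
      convert this using 1
      group
    obtain ⟨t, ht0, ht⟩ : ∃ t : F, t ≠ 0 ∧ t * t ≠ 1 := by
      have h3 : ({0, 1, -1} : Finset F).card < (Finset.univ : Finset F).card := by
        rw [Finset.card_univ]; exact lt_of_le_of_lt Finset.card_le_three (by have := H.five; omega)
      obtain ⟨t, -, ht⟩ := Finset.exists_mem_notMem_of_card_lt_card h3
      simp only [Finset.mem_insert, Finset.mem_singleton, not_or] at ht
      exact ⟨t, ht.1, fun h => (mul_self_eq_one_iff.mp h).elim ht.2.1 ht.2.2⟩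
    let W : F → GL (Fin 2 ⊕ Fin 2) F := fun t => spTrans u t * spTrans (j v) (t * γ * γ)⁻¹ * spTrans u t
    have hWu : ∀ t : F, t ≠ 0 → (W t : Mat) *ᵥ u = (t * γ)⁻¹ • j v := fun t ht => by
      simp only [W, Units.val_mul, ← Matrix.mulVec_mulVec, spTrans_mulVec, map_add, map_smul, LinearMap.add_apply,
        LinearMap.smul_apply, smul_eq_mul, beta_self, ← hγdef, hγ', mul_zero, zero_smul, add_zero]
      match_scalars <;> field_simp <;> ring
    have hWjv : ∀ t : F, t ≠ 0 → (W t : Mat) *ᵥ j v = (-(t * γ)) • u := fun t ht => by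
      simp only [W, Units.val_mul, ← Matrix.mulVec_mulVec, spTrans_mulVec, map_add, map_smul, LinearMap.add_apply,
        LinearMap.smul_apply, smul_eq_mul, beta_self, ← hγdef, hγ', mul_zero, zero_smul, add_zero]
      match_scalars <;> field_simp <;> ring
    have hWsp : ∀ t, W t ∈ Cfsg.spGL 2 F := fun t =>
      Subgroup.mul_mem _ (Subgroup.mul_mem _ (spTrans_mem _ _) (spTrans_mem _ _)) (spTrans_mem _ _)
    have hTu : ∀ x : F, spTrans u x ∈ C := by
      intro x
      set h := W t * W 1
      have hmemS : h ∈ Subgroup.closure {g | ∃ y : F, g = spTrans u y ∨ g = spTrans (j v) y} := by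
        refine Subgroup.mul_mem _ (Subgroup.mul_mem _ (Subgroup.mul_mem _ ?_ ?_) ?_)
          (Subgroup.mul_mem _ (Subgroup.mul_mem _ ?_ ?_) ?_) <;>
          exact Subgroup.subset_closure ⟨_, by first | exact Or.inl rfl | exact Or.inr rfl⟩
      have hh : (h : Mat) *ᵥ u = (-t) • u := by
        rw [Units.val_mul, ← Matrix.mulVec_mulVec, hWu 1 one_ne_zero, Matrix.mulVec_smul, hWjv t ht0, smul_smul]
        congr 1
        field_simp
      have key := commutator_mem C (a := spTrans u (x / (t * t - 1)))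
        {g | ∃ y : F, g = spTrans u y ∨ g = spTrans (j v) y} (fun g hg => by
          obtain ⟨y, rfl | rfl⟩ := hg
          · refine ⟨hnorm u (Or.inl rfl) y, ?_⟩
            rw [hTadd, add_comm, ← hTadd, mul_inv_cancel_right, mul_inv_cancel]
            exact C.one_mem
          · refine ⟨hnorm (j v) (Or.inr rfl) y, ?_⟩
            convert C.inv_mem (hgen (x / (t * t - 1)) y) using 1
            group) hmemS
      rw [conj_spTrans (Subgroup.mul_mem _ (hWsp t) (hWsp 1)), hh, spTrans_smul, spTrans_inv, hTadd] at key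
      convert key using 2
      have : t * t - 1 ≠ 0 := sub_ne_zero.mpr ht
      generalize hz : x / (t * t - 1) = z
      rw [div_eq_iff this] at hz
      linear_combination hz
    refine ⟨j v, hjv0, hqjv, fun c => hCM ?_⟩
    have hWN : W 1 ∈ Subgroup.normalizer (C : Set _) :=
      Subgroup.mul_mem _ (Subgroup.mul_mem _ (hnorm u (Or.inl rfl) _) (hnorm (j v) (Or.inr rfl) _))
        (hnorm u (Or.inl rfl) _)
    have h := (Subgroup.mem_normalizer_iff.mp hWN _).mp (hTu (c * γ * γ))
    rw [conj_spTrans (hWsp 1), hWu 1 one_ne_zero, spTrans_smul] at h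
    convert h using 2
    field_simp
  -- the radical
  obtain ⟨f, hf, h1, h2⟩ := H.partner hv0 hkw
  have hu : u = β u f • v + (-ν⁻¹ * β u (j f)) • j v := by
    have e := H.expand hkw hf h1 h2 u
    rw [beta_swap u v, huv, neg_zero, beta_swap u (j v), hγ, neg_zero, mul_zero, zero_smul, zero_smul, add_zero,
      add_zero] at e
    exact e
  set α := β u f
  set δ := -ν⁻¹ * β u (j f)
  by_cases hnd : α * δ = 0 ∧ α * α + ν * (δ * δ - 1) = 0
  swap
  · refine ⟨v, hv0, hkw, H.abel_root hsp hM hv0 hkw (A := α * α + ν * (δ * δ - 1)) (B := α * δ)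
      (by tauto) ?_⟩
    have h := M.mul_mem (M.inv_mem (hM _ (tau_mem v (δ * δ - 1)) (H.tau_norm hkw (δ * δ - 1)))) (hK 1)
    convert h using 1
    rw [eq_inv_mul_iff_mul_eq, hu]
    refine gl_ext fun y => ?_
    simp only [tau, Units.val_mul, ← Matrix.mulVec_mulVec, spTrans_mulVec, spX_mulVec hvv, map_add, map_smul,
      LinearMap.add_apply, LinearMap.smul_apply, smul_eq_mul, beta_self, hvv, hvv', mul_zero, add_zero]
    match_scalars <;> ring
  obtain ⟨hαδ, hA⟩ := hnd
  have hα : α = 0 := by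
    rcases mul_eq_zero.mp hαδ with h | h
    · exact h
    · exact absurd (show ν = α * α by rw [h] at hA; linear_combination -hA) (H.not_sq α)
  have hδ : δ * δ = 1 := by
    rw [hα] at hA
    exact sub_eq_zero.mp ((mul_eq_zero.mp (show ν * (δ * δ - 1) = 0 by linear_combination hA)).resolve_left hν)
  rw [hα, zero_smul, zero_add] at hu
  -- pull back to the plane of `w`
  obtain ⟨e, he, he1, he2⟩ := H.partner hw0 hw
  obtain ⟨n, hn, hnj, hnv, -⟩ := H.exists_frame_map hkw hf h1 h2 hw he he1 he2 hδ (p := 1) (r := 0)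
    (Or.inl one_ne_zero)
  rw [one_smul, zero_smul, add_zero] at hnv
  set k' := n * k with hk'def
  have hk'M : k' ∈ M := M.mul_mem (hM n hn ⟨0, δ, fun y => by rw [hnj]; module⟩) hk
  have hk'n : ¬ NormM j k' := by
    rintro ⟨a, b, hab⟩
    refine hkn ⟨a, b * δ, fun y => gl_mulVec_injective n ?_⟩
    change (n : Mat) *ᵥ _ = (n : Mat) *ᵥ _
    have h := hab y
    simp only [hk'def, Units.val_mul, ← Matrix.mulVec_mulVec] at h
    rw [h, Matrix.mulVec_add, Matrix.mulVec_smul, Matrix.mulVec_smul, hnj, smul_smul, mul_assoc, hδ, mul_one]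
  have hiso' := mem_spGL.mp (hsp hk'M)
  have hk'w : (k' : Mat) *ᵥ w = w := by
    rw [hk'def, Units.val_mul, ← Matrix.mulVec_mulVec, ← hvdef, hnv]
  have hk'jw : (k' : Mat) *ᵥ j w = j w := by
    rw [hk'def, Units.val_mul, ← Matrix.mulVec_mulVec, ← hudef, hu, Matrix.mulVec_smul, hnj, hnv, smul_smul, hδ,
      one_smul]
  have hee : β e (j e) = 0 := he
  have hew : β (j w) e = 0 := by rw [H.anti, he2, neg_zero]
  have hjj : β (j w) (j e) = -ν := by rw [H.jj, he1, mul_one]
  have himg : ∀ y : V, β y w = β e w → β y (j w) = β e (j w) →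
      y = β y e • w + (-ν⁻¹ * β y (j e)) • j w + e := by
    intro y e1 e2
    have h := H.expand hw he he1 he2 y
    rw [show β w y = 1 by rw [beta_swap y w, e1, beta_swap w e, neg_neg, he1],
      show β (j w) y = 0 by rw [beta_swap y (j w), e2, beta_swap (j w) e, hew, neg_zero, neg_zero]] at h
    conv_lhs => rw [h]
    simp
  have hke : (k' : Mat) *ᵥ e = β ((k' : Mat) *ᵥ e) e • w + (-ν⁻¹ * β ((k' : Mat) *ᵥ e) (j e)) • j w + e :=
    himg _ (by conv_lhs => rw [← hk'w, hiso']) (by conv_lhs => rw [← hk'jw, hiso'])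
  set A₁ := β ((k' : Mat) *ᵥ e) e
  set B₁ := -ν⁻¹ * β ((k' : Mat) *ᵥ e) (j e)
  set A₂ := β ((k' : Mat) *ᵥ j e) e
  set B₂ := -ν⁻¹ * β ((k' : Mat) *ᵥ j e) (j e)
  have hkje : (k' : Mat) *ᵥ j e = A₂ • w + B₂ • j w + j e := by
    have h := H.expand hw he he1 he2 ((k' : Mat) *ᵥ j e)
    rw [show β w ((k' : Mat) *ᵥ j e) = 0 by rw [← hk'w, hiso', he2],
      show β (j w) ((k' : Mat) *ᵥ j e) = -ν by rw [← hk'jw, hiso', hjj]] at h
    rw [neg_mul_neg, inv_mul_cancel₀ hν, zero_smul, add_zero, one_smul] at h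
    exact h
  have hA₂ : A₂ = -(ν * B₁) := by
    have h := hiso' e (j e)
    rw [hke, hkje] at h
    simp only [map_add, map_smul, LinearMap.add_apply, LinearMap.smul_apply, smul_eq_mul, beta_self,
      show β w (j w) = 0 from hw, hee, he2, hew, hjj, beta_swap w e, beta_swap w (j e), beta_swap (j w) e,
      beta_swap w (j w), he1, neg_zero, mul_zero, add_zero, zero_add, show β e (j w) = 0 by rw [H.swap_j, he2]] at h
    linear_combination -h
  have hT : k' = tau j ν w (B₂ / ν) * (spTrans w (-A₁ + B₂) * spX w (j w) (-B₁)) := by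
    refine gl_ext fun y => ?_
    have hww : β w (j w) = 0 := hw
    have hww' : β (j w) w = 0 := by rw [beta_swap w (j w), hww, neg_zero]
    conv_lhs => rw [H.expand hw he he1 he2 y]
    simp only [Matrix.mulVec_add, Matrix.mulVec_smul, hk'w, hk'jw, hke, hkje, hA₂]
    conv_rhs => arg 2; rw [H.expand hw he he1 he2 y]
    simp only [Units.val_mul, ← Matrix.mulVec_mulVec, H.tau_mulVec hw, spTrans_mulVec, spX_mulVec hww, map_add,
      map_smul, LinearMap.add_apply, LinearMap.smul_apply, smul_eq_mul, beta_self, hww, hww', beta_swap w e,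
      beta_swap (j w) e, beta_swap w (j e), beta_swap (j w) (j e), he1, he2, hew, hjj, neg_zero, mul_zero, add_zero,
      zero_add]
    match_scalars <;> field_simp <;> ring
  have hpm : spTrans w (-A₁ + B₂) * spX w (j w) (-B₁) ∈ M := by
    have h := M.mul_mem (M.inv_mem (hM _ (tau_mem w (B₂ / ν)) (H.tau_norm hw (B₂ / ν)))) hk'M
    rwa [hT, inv_mul_cancel_left] at h
  refine ⟨w, hw0, hw, H.abel_root hsp hM hw0 hw ?_ hpm⟩
  by_contra hc
  simp only [not_or, not_ne_iff] at hc
  refine hk'n ?_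
  have hww : β w (j w) = 0 := hw
  rw [hT, hc.1, hc.2, show spTrans w (0 : F) = 1 from gl_ext fun y => by simp [spTrans_mulVec],
    show spX w (j w) (0 : F) = 1 from gl_ext fun y => by simp [spX_mulVec hww], one_mul, mul_one]
  exact H.tau_norm hw _

/-- An element outside the normaliser generates the symplectic group. -/
theorem SJ₂.spGL_le {g : GL (Fin 2 ⊕ Fin 2) F} (hg : g ∈ M) (hgn : ¬ NormM j g) : Cfsg.spGL 2 F ≤ M := by
  classical
  obtain ⟨z, hz0, hz, hroot⟩ := H.exists_root hsp hM hg hgn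
  have hν := H.nu_ne
  obtain ⟨f, hf, h1, h2⟩ := H.partner hz0 hz
  let C : Set V := {v | ∀ d, spTrans v d ∈ M}
  have hsmul : ∀ (k : F), ∀ v ∈ C, k • v ∈ C := fun k v hv d => by rw [spTrans_smul]; exact hv _
  have hconj : ∀ g ∈ M, ∀ v ∈ C, (g : Mat) *ᵥ v ∈ C := fun g hg v hv d => by
    rw [← conj_spTrans (hsp hg)]; exact M.mul_mem (M.mul_mem hg (hv d)) (M.inv_mem hg)
  have hadd : ∀ u ∈ C, ∀ v ∈ C, β u v ≠ 0 → u + v ∈ C := fun u hu v hv huv => by
    have := hconj _ (hv (β u v)⁻¹) u hu
    rwa [spTrans_mulVec, inv_mul_cancel₀ huv, one_smul] at this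
  have hzC : z ∈ C := hroot
  have hzero : (0 : V) ∈ C := fun d => by rw [spTrans_zero_vec]; exact M.one_mem
  have hfC : f ∈ C := by
    have h3 := hconj _ (hM _ (tau_mem f 1) (H.tau_norm hf 1)) z hzC
    rw [H.tau_mulVec hf, h1, h2, mul_zero, zero_smul, add_zero, mul_one, mul_one] at h3
    have h4 := hadd _ h3 _ (hsmul (-1) z hzC) (by simp [hν, beta_self, beta_swap z f, h1])
    have h5 := hsmul (-ν)⁻¹ _ h4
    convert h5 using 1
    match_scalars <;> field_simp <;> ring
  have hline : ∀ (p r : F), p • z + r • j z ∈ C ∧ p • f + r • j f ∈ C := by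
    intro p r
    by_cases hpr : p ≠ 0 ∨ r ≠ 0
    · obtain ⟨n, hn, hnj, hnv, hnf⟩ := H.exists_frame_map hz hf h1 h2 hz hf h1 h2 (δ := 1) (mul_one 1) hpr
      have hnM := hM n hn ⟨0, 1, fun y => by rw [hnj]; module⟩
      refine ⟨hnv ▸ hconj n hnM z hzC, ?_⟩
      have h := hsmul (p * p - ν * (r * r)) _ (hnf ▸ hconj n hnM f hfC)
      rwa [smul_inv_smul₀ (H.nm_ne p r hpr)] at h
    · simp only [not_or, not_ne_iff] at hpr
      rw [hpr.1, hpr.2]
      simp only [zero_smul, add_zero]
      exact ⟨hzero, hzero⟩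
  refine spGL_le_of_spTrans M fun y d => (show y ∈ C from ?_) d
  have hzz : β z (j z) = 0 := hz
  have hzz' : β (j z) z = 0 := by rw [beta_swap z (j z), hzz, neg_zero]
  have hjzf : β (j z) f = 0 := by rw [H.anti, h2, neg_zero]
  have hjj : β (j z) (j f) = -ν := by rw [H.jj, h1, mul_one]
  rw [H.expand hz hf h1 h2 y]
  set c₁ := β y f
  set c₂ := -ν⁻¹ * β y (j f)
  set d₁ := β z y
  set d₂ := -ν⁻¹ * β (j z) y
  by_cases hd : d₁ = 0 ∧ d₂ = 0
  · rw [hd.1, hd.2, zero_smul, zero_smul, add_zero, add_zero]; exact (hline c₁ c₂).1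
  by_cases hp : c₁ * d₁ - ν * (c₂ * d₂) = 0
  swap
  · rw [add_assoc]
    refine hadd _ (hline c₁ c₂).1 _ (hline d₁ d₂).2 ?_
    simp only [map_add, map_smul, LinearMap.add_apply, LinearMap.smul_apply, smul_eq_mul, h1, h2, hjzf, hjj,
      mul_zero, mul_one, add_zero, zero_add]
    exact fun h => hp (by linear_combination h)
  obtain ⟨a, b, hab⟩ : ∃ a b : F, a * d₁ - ν * (b * d₂) ≠ 0 := by
    rcases not_and_or.mp hd with h | h
    · exact ⟨1, 0, by simpa using h⟩
    · exact ⟨0, 1, by simpa [hν] using h⟩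
  have hmix := hadd _ (hline a b).1 _ (hline d₁ d₂).2 (by
    simp only [map_add, map_smul, LinearMap.add_apply, LinearMap.smul_apply, smul_eq_mul, h1, h2, hjzf, hjj,
      mul_zero, mul_one, add_zero, zero_add]
    exact fun h => hab (by linear_combination h))
  have h := hadd _ (hline (c₁ - a) (c₂ - b)).1 _ hmix (by
    simp only [map_add, map_smul, LinearMap.add_apply, LinearMap.smul_apply, smul_eq_mul, beta_self, hzz, hzz', h1, h2,
      hjzf, hjj, mul_zero, mul_one, add_zero, zero_add]
    exact fun h => hab (by linear_combination hp - h))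
  convert h using 1
  module

end

omit H in
/-- The four dimensional space is spanned by more than one line over the quadratic field. -/
theorem exists_beta_ne {w : V} (hw : w ≠ 0) : ∃ x, β x w ≠ 0 := by
  by_contra hc
  push Not at hc
  exact hw ((Cfsg.Agent.H2.sympBilin_nondegenerate 2 F).1 w fun y => by rw [beta_swap y w, hc y, neg_zero])

/-- Some element of the symplectic group does not normalise the field. -/
theorem SJ₂.exists_not_norm : ∃ g ∈ Cfsg.spGL 2 F, ¬ NormM j g := by
  obtain ⟨w, hw0, hw⟩ := H4.exists_singular_of_three_le (qf j)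
    (by rw [Module.finrank_fintype_fun_eq_card]; simp)
  have hww : β w (j w) = 0 := hw
  have hww' : β (j w) w = 0 := by rw [beta_swap w (j w), hww, neg_zero]
  refine ⟨spTrans w 1, spTrans_mem _ _, fun ⟨a, b, h⟩ => ?_⟩
  have h1 := h w
  rw [spTrans_mulVec, spTrans_mulVec, hww', beta_self] at h1
  obtain ⟨ha, hb⟩ := H.indep hw0 (show (-a) • w + (1 - b) • j w = 0 by
    linear_combination (norm := (simp; try module)) h1)
  rw [neg_eq_zero] at ha
  rw [sub_eq_zero] at hb
  subst ha hb
  obtain ⟨x, hx⟩ := exists_beta_ne hw0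
  have h3 := h x
  rw [spTrans_mulVec, spTrans_mulVec, map_add, map_smul] at h3
  exact hx (neg_eq_zero.mp (H.indep hw0 (show (β (j x) w) • w + (-β x w) • j w = 0 by
    linear_combination (norm := (simp; try module)) h3)).2)

end

end Cfsg.Agent.H99.SpFour
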