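import Cfsg.Agent.H98.SpUnitary
import Cfsg.Agent.H98.SpSubfieldBase

set_option autoImplicit false
set_option linter.unusedSectionVars false

/-!
For odd `q ≥ 5` the normaliser of a unitary group over the quadratic extension is maximal in the four
dimensional symplectic group.
-/

namespace Cfsg.Agent.H99.SpFour

open Cfsg.Agent.H98 Cfsg.Agent.H98.SU2
open scoped Matrix

variable {F : Type*} [Field F] [Fintype F]

local notation "V" => (Fin 2 ⊕ Fin 2 → F)
local notation "Mat" => Matrix (Fin 2 ⊕ Fin 2) (Fin 2 ⊕ Fin 2) F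
local notation "β" => Cfsg.Agent.H2.sympBilin 2 F

attribute [-simp] Cfsg.Agent.H2.sympBilin_apply

/-- A skew-adjoint generator of a quadratic field. -/
structure SJ₂ (j : (Fin 2 ⊕ Fin 2 → F) →ₗ[F] (Fin 2 ⊕ Fin 2 → F)) (ν : F) : Prop where
  two : (2 : F) ≠ 0
  five : 5 ≤ Fintype.card F
  anti : ∀ x y, Cfsg.Agent.H2.sympBilin 2 F (j x) y = - Cfsg.Agent.H2.sympBilin 2 F x (j y)
  sq : ∀ v, j (j v) = ν • v
  free : ∀ (a : F) v, j v = a • v → v = 0

variable {j : (Fin 2 ⊕ Fin 2 → F) →ₗ[F] (Fin 2 ⊕ Fin 2 → F)} {ν : F}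
variable (H : SJ₂ j ν)
include H

theorem SJ₂.not_sq (a : F) : ν ≠ a * a := by
  intro h
  have h0 : ∀ v : V, j v + a • v = 0 := fun v => H.free a _ (by rw [map_add, map_smul, H.sq, h]; module)
  have h1 := H.free (-a) (eV 0) (by rw [neg_smul, ← sub_eq_zero, sub_neg_eq_add]; exact h0 _)
  exact eV_ne_zero 0 h1

theorem SJ₂.nu_ne : ν ≠ 0 := by simpa using H.not_sq 0

theorem SJ₂.nm_ne (p r : F) (h : p ≠ 0 ∨ r ≠ 0) : p * p - ν * (r * r) ≠ 0 := by
  intro h0
  rcases eq_or_ne r 0 with rfl | hr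
  · rcases h with h | h
    · exact mul_ne_zero h h (by linear_combination h0)
    · exact h rfl
  · exact H.not_sq (p / r) (by field_simp; linear_combination -h0)

theorem SJ₂.swap_j (x y : V) : β x (j y) = β y (j x) := by
  rw [beta_swap (j x) y, H.anti, neg_neg]

theorem SJ₂.jj (x y : V) : β (j x) (j y) = - ν * β x y := by
  rw [H.anti, H.sq, map_smul, smul_eq_mul, neg_mul]

theorem SJ₂.indep {v : V} (hv : v ≠ 0) {a b : F} (h : a • v + b • j v = 0) : a = 0 ∧ b = 0 := by
  rcases eq_or_ne b 0 with rfl | hb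
  · rw [zero_smul, add_zero] at h
    exact ⟨(smul_eq_zero.mp h).resolve_right hv, rfl⟩
  · refine absurd (H.free (-(b⁻¹ * a)) v ?_) hv
    rw [← inv_smul_smul₀ hb (j v), show b • j v = -(a • v) from eq_neg_of_add_eq_zero_right h, smul_neg, smul_smul,
      neg_smul]

/-- Four vectors with invertible Gram matrix span, in the hyperbolic case. -/
theorem SJ₂.expand {v f : V} (hv : qf j v = 0) (hf : qf j f = 0) (h1 : β v f = 1) (h2 : β v (j f) = 0) (y : V) :
    y = β y f • v + (-ν⁻¹ * β y (j f)) • j v + β v y • f + (-ν⁻¹ * β (j v) y) • j f := by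
  have hν := H.nu_ne
  have hvv : β v (j v) = 0 := hv
  have hff : β f (j f) = 0 := hf
  have hjvf : β (j v) f = 0 := by rw [H.anti, h2, neg_zero]
  have hjj : β (j v) (j f) = -ν := by rw [H.jj, h1, mul_one]
  let b : Fin 4 → V := ![v, j v, f, j f]
  have hli : LinearIndependent F b := by
    refine Fintype.linearIndependent_iff.mpr fun c hc => ?_
    simp only [b, Fin.sum_univ_four, Matrix.cons_val_zero, Matrix.cons_val_one, Matrix.cons_val] at hc
    have e0 := congrArg (fun z => β z f) hc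
    have e1 := congrArg (fun z => β z (j f)) hc
    have e2 := congrArg (fun z => β v z) hc
    have e3 := congrArg (fun z => β (j v) z) hc
    simp only [map_add, map_smul, map_zero, LinearMap.add_apply, LinearMap.smul_apply, LinearMap.zero_apply,
      smul_eq_mul, h1, h2, hvv, hff, hjvf, hjj, beta_self, beta_swap f (j f), beta_swap v (j v),
      neg_zero, mul_zero, mul_one, add_zero, zero_add, mul_neg, neg_eq_zero, mul_eq_zero, hν, or_false] at e0 e1 e2 e3
    intro i; fin_cases i <;> assumption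
  have htop := hli.span_eq_top_of_card_eq_finrank (by simp)
  have hy : y ∈ Submodule.span F (Set.range b) := htop ▸ Submodule.mem_top
  obtain ⟨c, hc⟩ := (Submodule.mem_span_range_iff_exists_fun F).mp hy
  simp only [b, Fin.sum_univ_four, Matrix.cons_val_zero, Matrix.cons_val_one, Matrix.cons_val] at hc
  rw [← hc]
  simp only [map_add, map_smul, LinearMap.add_apply, LinearMap.smul_apply, smul_eq_mul, h1, h2, hvv, hff, hjvf, hjj,
    beta_self, beta_swap f (j f), beta_swap v (j v), neg_zero, mul_zero, mul_one, add_zero, zero_add]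
  match_scalars <;> field_simp

/-- A hyperbolic partner. -/
theorem SJ₂.partner {v : V} (hv0 : v ≠ 0) (hv : qf j v = 0) : ∃ f, qf j f = 0 ∧ β v f = 1 ∧ β v (j f) = 0 := by
  have hvn : v ∉ Submodule.span F {j v} := fun hm => by
    obtain ⟨c, hc⟩ := Submodule.mem_span_singleton.mp hm
    exact one_ne_zero (H.indep hv0 (show (1 : F) • v + (-c) • j v = 0 by linear_combination (norm := module) -hc)).1
  obtain ⟨φ, hφ, hφ'⟩ := Submodule.exists_dual_map_eq_bot_of_notMem hvn inferInstance
  obtain ⟨y, hy⟩ := (LinearMap.BilinForm.toDual (Cfsg.Agent.H2.sympBilin 2 F)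
    (Cfsg.Agent.H2.sympBilin_nondegenerate 2 F)).surjective ((φ v)⁻¹ • φ)
  have hy' : ∀ z, β y z = (φ v)⁻¹ * φ z := fun z => LinearMap.congr_fun hy z
  have hjv : φ (j v) = 0 := by
    rw [← Submodule.mem_bot (R := F), ← hφ']; exact Submodule.mem_map_of_mem (Submodule.mem_span_singleton_self _)
  have e1 : β v (-y) = 1 := by rw [map_neg, beta_swap y v, neg_neg, hy', inv_mul_cancel₀ hφ]
  have e2 : β (j v) y = 0 := by rw [beta_swap y (j v), hy', hjv, mul_zero, neg_zero]
  have e3 : β v y = -1 := by rw [map_neg] at e1; linear_combination -e1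
  have hν := H.nu_ne
  have h2' := H.two
  refine ⟨-y + (β y (j y) / (2 * ν)) • j v, ?_, ?_, ?_⟩
  · rw [qf_apply]
    simp only [map_add, map_neg, map_smul, LinearMap.add_apply, LinearMap.neg_apply, LinearMap.smul_apply, smul_eq_mul,
      H.sq, H.jj, beta_swap v y, e3, show β (j v) v = 0 by rw [beta_swap v (j v), show β v (j v) = 0 from hv, neg_zero]]
    field_simp
    ring
  · rw [map_add, map_smul, e1, show β v (j v) = 0 from hv]; simp
  · rw [map_add, map_neg, map_smul, map_add, map_neg, map_smul, H.sq, map_smul, beta_self,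
      show β v (j y) = 0 by linear_combination (H.anti v y) - e2]
    simp

/-- The torus element at a hyperbolic pair. -/
theorem SJ₂.exists_torus {v f : V} (hv : qf j v = 0) (hf : qf j f = 0) (h1 : β v f = 1) (h2 : β v (j f) = 0)
    {p r : F} (hpr : p ≠ 0 ∨ r ≠ 0) :
    ∃ n ∈ Cfsg.spGL 2 F, NormM j n ∧ (n : Mat) *ᵥ v = p • v + r • j v ∧
      (n : Mat) *ᵥ f = (p * p - ν * (r * r))⁻¹ • (p • f + r • j f) := by
  classical
  have hν := H.nu_ne
  have hN := H.nm_ne p r hpr
  have hvv : β v (j v) = 0 := hv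
  have hff : β f (j f) = 0 := hf
  have hjvf : β (j v) f = 0 := by rw [H.anti, h2, neg_zero]
  have hjj : β (j v) (j f) = -ν := by rw [H.jj, h1, mul_one]
  let π : V →ₗ[F] V := ((Cfsg.Agent.H2.sympBilin 2 F).flip f).smulRight v +
    ((-ν⁻¹) • (Cfsg.Agent.H2.sympBilin 2 F).flip (j f)).smulRight (j v)
  let Aop : V →ₗ[F] V := p • LinearMap.id + r • j
  let L : V →ₗ[F] V := Aop ∘ₗ (π + (p * p - ν * (r * r))⁻¹ • (LinearMap.id - π))
  have hπ : ∀ y, π y = β y f • v + (-ν⁻¹ * β y (j f)) • j v := fun y => rfl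
  have hL : ∀ y, L y = p • (π y + (p * p - ν * (r * r))⁻¹ • (y - π y)) +
      r • j (π y + (p * p - ν * (r * r))⁻¹ • (y - π y)) := fun y => rfl
  have hπj : ∀ y, π (j y) = j (π y) := fun y => by
    rw [hπ, hπ, map_add, map_smul, map_smul, H.sq, H.anti y f, H.jj]
    match_scalars <;> field_simp
  have hA : ∀ x y, β (p • x + r • j x) (p • y + r • j y) = (p * p - ν * (r * r)) * β x y := fun x y => by
    simp only [map_add, map_smul, LinearMap.add_apply, LinearMap.smul_apply, smul_eq_mul, H.anti x y, H.jj]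
    ring
  have hπiso : ∀ x y, β (π x) (π y) = 0 := fun x y => by
    simp only [hπ, map_add, map_smul, LinearMap.add_apply, LinearMap.smul_apply, smul_eq_mul, beta_self, hvv,
      beta_swap v (j v), neg_zero, mul_zero, add_zero]
  have hcoiso : ∀ x y, β (x - π x) (y - π y) = 0 := fun x y => by
    rw [show x - π x = β v x • f + (-ν⁻¹ * β (j v) x) • j f by
        conv_lhs => arg 1; rw [H.expand hv hf h1 h2 x]
        rw [hπ]; module,
      show y - π y = β v y • f + (-ν⁻¹ * β (j v) y) • j f by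
        conv_lhs => arg 1; rw [H.expand hv hf h1 h2 y]
        rw [hπ]; module]
    simp only [map_add, map_smul, LinearMap.add_apply, LinearMap.smul_apply, smul_eq_mul, beta_self, hff,
      beta_swap f (j f), neg_zero, mul_zero, add_zero]
  have hiso : ∀ x y, β (L x) (L y) = β x y := fun x y => by
    have e1 := hπiso x y
    have e2 := hcoiso x y
    rw [hL, hL, hA]
    simp only [map_add, map_sub, map_smul, LinearMap.add_apply, LinearMap.sub_apply, LinearMap.smul_apply,
      smul_eq_mul] at e1 e2 ⊢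
    rw [e1] at e2 ⊢
    linear_combination (β (π x) y + β x (π y)) * mul_inv_cancel₀ hN +
      ((p * p - ν * (r * r)) * (p * p - ν * (r * r))⁻¹ * (p * p - ν * (r * r))⁻¹ - 1) * e2
  have hinj : Function.Injective L := by
    rw [injective_iff_map_eq_zero]
    intro y hy
    exact (Cfsg.Agent.H2.sympBilin_nondegenerate 2 F).1 y fun w => by rw [← hiso, hy]; simp
  refine ⟨glOfEquiv (LinearEquiv.ofInjectiveEndo L hinj), mem_spGL.mpr fun u w => ?_, ⟨0, 1, fun w => ?_⟩, ?_, ?_⟩
  · simp only [glOfEquiv_mulVec, LinearEquiv.coe_ofInjectiveEndo]; exact hiso u w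
  · simp only [glOfEquiv_mulVec, LinearEquiv.coe_ofInjectiveEndo, zero_smul, zero_add, one_smul, hL, hπj,
      ← map_sub, ← map_smul j, ← map_add j]
  · simp only [glOfEquiv_mulVec, LinearEquiv.coe_ofInjectiveEndo]
    have e : π v = v := by rw [hπ, h1, h2]; simp
    rw [hL, e, sub_self, smul_zero, add_zero]
  · simp only [glOfEquiv_mulVec, LinearEquiv.coe_ofInjectiveEndo]
    have e : π f = 0 := by rw [hπ, beta_self, hff]; simp
    rw [hL, e, sub_zero, zero_add, map_smul]
    module

theorem SJ₂.tau_mulVec {w : V} (hw : qf j w = 0) (b : F) (y : V) :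
    (tau j ν w b : Mat) *ᵥ y = y + (-(ν * b) * β y w) • w + (b * β y (j w)) • j w := by
  have h : β (j w) w = 0 := by rw [beta_swap w (j w), show β w (j w) = 0 from hw, neg_zero]
  simp only [tau, Units.val_mul, ← Matrix.mulVec_mulVec, spTrans_mulVec, map_add, map_smul, LinearMap.add_apply,
    LinearMap.smul_apply, smul_eq_mul, h, mul_zero, add_zero]
  module

theorem SJ₂.tau_norm {w : V} (hw : qf j w = 0) (b : F) : NormM j (tau j ν w b) := ⟨0, 1, fun v => by
  simp only [H.tau_mulVec hw, H.anti v, H.sq, map_add, map_smul, map_neg, smul_eq_mul]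
  module⟩

/-- The square of an element of the normaliser commutes with `j`. -/
theorem SJ₂.sq_comm {G : GL (Fin 2 ⊕ Fin 2) F} (hG : G ∈ Cfsg.spGL 2 F) (hn : NormM j G) (v : V) :
    ((G * G : GL (Fin 2 ⊕ Fin 2) F) : Mat) *ᵥ j v = j (((G * G : GL (Fin 2 ⊕ Fin 2) F) : Mat) *ᵥ v) := by
  obtain ⟨a, b, hab⟩ := hn
  have hiso := mem_spGL.mp hG
  have ha : a = 0 := by
    have h0 : β (j (eV 0 : V)) (fV 0) + β (eV 0) (j (fV 0)) = 0 := by rw [H.anti]; ring
    rw [← hiso, ← hiso (eV 0), hab, hab] at h0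
    simp only [map_add, map_smul, LinearMap.add_apply, LinearMap.smul_apply, smul_eq_mul, H.anti, hiso] at h0
    have h1 : (2 : F) * a = 0 := by
      have e : β (eV 0 : V) (fV 0) = -1 := by rw [beta_eV, fV]; simp
      rw [e] at h0
      linear_combination -h0
    exact (mul_eq_zero.mp h1).resolve_left H.two
  subst ha
  simp only [zero_smul, zero_add] at hab
  have hb : b * b = 1 := by
    obtain ⟨u, hu⟩ : ∃ u : V, u ≠ 0 := ⟨eV 0, eV_ne_zero 0⟩
    have e := hab (j u)
    rw [H.sq, Matrix.mulVec_smul, hab, map_smul, H.sq, smul_smul, smul_smul] at e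
    have hGu : (G : Mat) *ᵥ u ≠ 0 := fun h => hu (gl_mulVec_injective G (h.trans (Matrix.mulVec_zero _).symm))
    exact mul_left_cancel₀ H.nu_ne (by linear_combination -(smul_left_injective F hGu e))
  rw [Units.val_mul, ← Matrix.mulVec_mulVec, ← Matrix.mulVec_mulVec, hab, Matrix.mulVec_smul, hab, smul_smul, hb,
    one_smul]

/-- The unitary reflection fixing an anisotropic point. -/
theorem SJ₂.exists_refl {w : V} (hw : β w (j w) ≠ 0) {p r : F} (hpr : p * p - ν * (r * r) = 1) :
    ∃ n ∈ Cfsg.spGL 2 F, NormM j n ∧ ∀ y, (n : Mat) *ᵥ y =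
      (β y (j w) / β w (j w)) • w - (β y w / β w (j w)) • j w +
        (p • (y - ((β y (j w) / β w (j w)) • w - (β y w / β w (j w)) • j w)) +
          r • j (y - ((β y (j w) / β w (j w)) • w - (β y w / β w (j w)) • j w))) := by
  classical
  set κ := β w (j w) with hκ
  have hjw : β (j w) w = -κ := by rw [beta_swap w (j w)]
  let π : V →ₗ[F] V := (κ⁻¹ • (Cfsg.Agent.H2.sympBilin 2 F).flip (j w)).smulRight w -
    (κ⁻¹ • (Cfsg.Agent.H2.sympBilin 2 F).flip w).smulRight (j w)
  let L : V →ₗ[F] V := π + (p • LinearMap.id + r • j) ∘ₗ (LinearMap.id - π)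
  have hπ : ∀ y, π y = (β y (j w) / κ) • w - (β y w / κ) • j w := fun y => by
    simp [π, div_eq_inv_mul]
  have hL : ∀ y, L y = π y + (p • (y - π y) + r • j (y - π y)) := fun y => rfl
  have hπj : ∀ y, π (j y) = j (π y) := fun y => by
    rw [hπ, hπ, map_sub, map_smul, map_smul, H.sq, H.anti y w, H.jj]
    match_scalars <;> field_simp
  have hperp : ∀ y, β w (y - π y) = 0 ∧ β (j w) (y - π y) = 0 := fun y => by
    rw [hπ]
    constructor <;>
      simp only [map_sub, map_smul, smul_eq_mul, beta_self, hjw, ← hκ, mul_zero, zero_sub, sub_zero] <;>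
      rw [beta_swap y] <;> field_simp <;> ring
  have horth : ∀ x y, β (π x) (y - π y) = 0 := fun x y => by
    rw [hπ x, LinearMap.map_sub₂, LinearMap.map_smul₂, LinearMap.map_smul₂,
      (hperp y).1, (hperp y).2, smul_zero, smul_zero, sub_zero]
  have hiso : ∀ x y, β (L x) (L y) = β x y := fun x y => by
    have horth' : ∀ x y, β (π x) (j (y - π y)) = 0 := fun x y => by
      rw [map_sub, ← hπj]; exact horth x (j y)
    have hflip : ∀ x y, β (x - π x) (π y) = 0 := fun x y => by rw [beta_swap (π y), horth, neg_zero]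
    have hflip' : ∀ x y, β (j (x - π x)) (π y) = 0 := fun x y => by rw [beta_swap (π y), horth', neg_zero]
    have e0 : β x y = β (π x) (π y) + β (x - π x) (y - π y) := by
      conv_lhs => rw [← add_sub_cancel (π x) x, ← add_sub_cancel (π y) y]
      simp only [map_add, LinearMap.add_apply, horth, hflip]; ring
    rw [hL, hL, e0]
    simp only [map_add, map_smul, LinearMap.add_apply, LinearMap.smul_apply, smul_eq_mul, horth, horth', hflip, hflip',
      H.anti (x - π x) (y - π y), H.jj]
    linear_combination β (x - π x) (y - π y) * hpr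
  have hinj : Function.Injective L := by
    rw [injective_iff_map_eq_zero]
    intro y hy
    exact (Cfsg.Agent.H2.sympBilin_nondegenerate 2 F).1 y fun u => by rw [← hiso, hy]; simp
  refine ⟨glOfEquiv (LinearEquiv.ofInjectiveEndo L hinj), mem_spGL.mpr fun u v => ?_, ⟨0, 1, fun v => ?_⟩, fun y => ?_⟩
  · simp only [glOfEquiv_mulVec, LinearEquiv.coe_ofInjectiveEndo]; exact hiso u v
  · simp only [glOfEquiv_mulVec, LinearEquiv.coe_ofInjectiveEndo, zero_smul, zero_add, one_smul, hL, hπj,
      ← map_sub, ← map_smul j, ← map_add j]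
  · simp only [glOfEquiv_mulVec, LinearEquiv.coe_ofInjectiveEndo]; rw [hL, hπ]

set_option maxHeartbeats 1600000 in
/-- An element outside the normaliser yields one in it mapping a singular vector to a singular vector. -/
theorem SJ₂.exists_sing_move {M : Subgroup (GL (Fin 2 ⊕ Fin 2) F)} (hsp : M ≤ Cfsg.spGL 2 F)
    (hM : ∀ g ∈ Cfsg.spGL 2 F, NormM j g → g ∈ M) {g : GL (Fin 2 ⊕ Fin 2) F} (hg : g ∈ M) (hgn : ¬ NormM j g) :
    ∃ k ∈ M, ¬ NormM j k ∧ ∃ w : V, w ≠ 0 ∧ qf j w = 0 ∧ qf j ((k : Mat) *ᵥ w) = 0 := by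
  classical
  have hν := H.nu_ne
  obtain ⟨v, hv0, hv⟩ := H4.exists_singular_of_three_le (qf j)
    (by rw [Module.finrank_fintype_fun_eq_card]; simp)
  set gi : Mat := ((g⁻¹ : GL (Fin 2 ⊕ Fin 2) F) : Mat) with hgi
  have hiso := mem_spGL.mp (hsp (M.inv_mem hg))
  have hqs : ∀ a b : F, qf j (a • v + b • j v) = 0 := fun a b => by
    rw [qf_apply]
    simp only [map_add, map_smul, LinearMap.add_apply, LinearMap.smul_apply, smul_eq_mul, H.sq, H.jj, beta_self,
      show β v (j v) = 0 from hv, beta_swap v (j v)]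
    ring
  by_cases hsing : ∃ w : V, w ≠ 0 ∧ qf j w = 0 ∧ qf j ((g : Mat) *ᵥ w) = 0
  · exact ⟨g, hg, hgn, hsing⟩
  push Not at hsing
  set w₁ := gi *ᵥ v with hw₁
  set w₂₀ := gi *ᵥ j v with hw₂₀
  have hg₁ : (g : Mat) *ᵥ w₁ = v := by rw [hw₁, hgi, gl_mulVec_inv]
  have hg₂ : (g : Mat) *ᵥ w₂₀ = j v := by rw [hw₂₀, hgi, gl_mulVec_inv]
  have hjv0 : j v ≠ 0 := fun h => hv0 (H.free 0 v (by rw [zero_smul]; exact h))
  have h12 : β w₁ w₂₀ = 0 := by rw [hiso]; exact hv
  have hκ₁ : β w₁ (j w₁) ≠ 0 := fun h => hsing w₁ (fun h0 => hv0 (by rw [← hg₁, h0, Matrix.mulVec_zero])) h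
    (by rw [hg₁]; exact hv)
  obtain ⟨w₂, h12', hne, hgw₂⟩ : ∃ w₂ : V, β w₁ w₂ = 0 ∧ β w₂ (j w₁) ≠ 0 ∧
      ∃ a : F, (g : Mat) *ᵥ w₂ = a • v + (1 : F) • j v := by
    by_cases h : β w₂₀ (j w₁) = 0
    · refine ⟨w₂₀ + w₁, by rw [map_add, h12, beta_self, add_zero], by
        rw [map_add, LinearMap.add_apply, h, zero_add]; exact hκ₁, 1, ?_⟩
      rw [Matrix.mulVec_add, hg₁, hg₂]; module
    · exact ⟨w₂₀, h12, h, 0, by rw [hg₂]; module⟩
  obtain ⟨a₂, hgw₂⟩ := hgw₂
  have hq₂ : qf j ((g : Mat) *ᵥ w₂) = 0 := by rw [hgw₂]; exact hqs _ _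
  have hw₂0 : w₂ ≠ 0 := fun h => hne (by rw [h, map_zero, LinearMap.zero_apply])
  have hκ₂ : β w₂ (j w₂) ≠ 0 := fun h => hsing w₂ hw₂0 h hq₂
  obtain ⟨s, hs0, hs⟩ : ∃ s : F, s ≠ 0 ∧ s * s + ν ≠ 0 := by
    by_contra hcon
    push Not at hcon
    have hle : Fintype.card F ≤ 3 := by
      by_cases hex : ∃ s₀ : F, s₀ ≠ 0
      · obtain ⟨s₀, hs₀⟩ := hex
        have hsub : (Finset.univ : Finset F) ⊆ {0, s₀, -s₀} := fun s _ => by
          simp only [Finset.mem_insert, Finset.mem_singleton]
          by_cases hs : s = 0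
          · exact Or.inl hs
          · exact Or.inr (mul_self_eq_mul_self_iff.mp (by linear_combination hcon s hs - hcon s₀ hs₀))
        exact le_trans (Finset.card_le_card hsub) Finset.card_le_three
      · push Not at hex
        exact absurd (hex 1) one_ne_zero
    have := H.five; omega
  set D := s * s - ν
  have hD : D ≠ 0 := fun h => H.not_sq s (by linear_combination -h)
  set p := (s * s + ν) / D with hp
  set r := 2 * s / D with hr
  have hpr : p * p - ν * (r * r) = 1 := by rw [hp, hr]; field_simp; ring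
  have hpr0 : 2 * (p * r) ≠ 0 := mul_ne_zero H.two (mul_ne_zero (div_ne_zero hs hD)
    (div_ne_zero (mul_ne_zero H.two hs0) hD))
  obtain ⟨n₁, hn₁, hn₁N, hn₁v⟩ := H.exists_refl hκ₁ hpr
  obtain ⟨n₂, hn₂, hn₂N, hn₂v⟩ := H.exists_refl hκ₂ hpr
  by_contra hcon
  push Not at hcon
  have hfix : ∀ (w : V) (n : GL (Fin 2 ⊕ Fin 2) F), β w (j w) ≠ 0 → (∀ y, (n : Mat) *ᵥ y =
      (β y (j w) / β w (j w)) • w - (β y w / β w (j w)) • j w +
        (p • (y - ((β y (j w) / β w (j w)) • w - (β y w / β w (j w)) • j w)) +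
          r • j (y - ((β y (j w) / β w (j w)) • w - (β y w / β w (j w)) • j w)))) → (n : Mat) *ᵥ w = w := by
    intro w n hκ hn
    rw [hn, beta_self, div_self hκ]
    simp
  have hgn₁ : NormM j (g * n₁ * g⁻¹) := by
    by_contra h
    have hm : g * n₁ * g⁻¹ ∈ M := M.mul_mem (M.mul_mem hg (hM _ hn₁ hn₁N)) (M.inv_mem hg)
    refine hcon _ hm h _ hv0 hv ?_
    rw [← hg₁, Units.val_mul, Units.val_mul, ← Matrix.mulVec_mulVec, ← Matrix.mulVec_mulVec, gl_inv_mulVec,
      hfix w₁ n₁ hκ₁ hn₁v, hg₁]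
    exact hv
  have hgn₂ : NormM j (g * n₂ * g⁻¹) := by
    by_contra h
    have hm : g * n₂ * g⁻¹ ∈ M := M.mul_mem (M.mul_mem hg (hM _ hn₂ hn₂N)) (M.inv_mem hg)
    refine hcon _ hm h ((g : Mat) *ᵥ w₂) (fun h0 => hw₂0 (gl_mulVec_injective g (h0.trans (Matrix.mulVec_zero _).symm)))
      hq₂ ?_
    rw [Units.val_mul, Units.val_mul, ← Matrix.mulVec_mulVec, ← Matrix.mulVec_mulVec, gl_inv_mulVec,
      hfix w₂ n₂ hκ₂ hn₂v]
    exact hq₂
  -- the moved generator
  let J : V →ₗ[F] V := Matrix.mulVecLin gi ∘ₗ j ∘ₗ Matrix.mulVecLin (g : Mat)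
  have hJ : ∀ y, J y = gi *ᵥ j ((g : Mat) *ᵥ y) := fun y => rfl
  have hJJ : ∀ y, J (J y) = ν • y := fun y => by
    rw [hJ, hJ, hgi, gl_mulVec_inv, H.sq, Matrix.mulVec_smul, gl_inv_mulVec]
  have key : ∀ (w : V) (n : GL (Fin 2 ⊕ Fin 2) F), n ∈ Cfsg.spGL 2 F → NormM j (g * n * g⁻¹) → β w (j w) ≠ 0 →
      (∀ y, (n : Mat) *ᵥ y = (β y (j w) / β w (j w)) • w - (β y w / β w (j w)) • j w +
        (p • (y - ((β y (j w) / β w (j w)) • w - (β y w / β w (j w)) • j w)) +
          r • j (y - ((β y (j w) / β w (j w)) • w - (β y w / β w (j w)) • j w)))) →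
      (∃ a b : F, J w = a • w + b • j w) ∧
      ∀ y, β y w = 0 → β y (j w) = 0 → β (J y) w = 0 ∧ β (J y) (j w) = 0 ∧ J (j y) = j (J y) := by
    intro w n hn hN hκ hnv
    have hR : ∀ y, ((n * n : GL (Fin 2 ⊕ Fin 2) F) : Mat) *ᵥ y =
        (β y (j w) / β w (j w)) • w - (β y w / β w (j w)) • j w +
        ((p * p + ν * (r * r)) • (y - ((β y (j w) / β w (j w)) • w - (β y w / β w (j w)) • j w)) +
          (2 * (p * r)) • j (y - ((β y (j w) / β w (j w)) • w - (β y w / β w (j w)) • j w))) := by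
      intro y
      rw [Units.val_mul, ← Matrix.mulVec_mulVec, hnv y]
      set c₁ := β y (j w) / β w (j w) with hc₁
      set c₂ := β y w / β w (j w) with hc₂
      set d := y - (c₁ • w - c₂ • j w) with hd
      have d1 : β d w = 0 := by
        simp only [hd, map_sub, map_smul, LinearMap.sub_apply, LinearMap.smul_apply, smul_eq_mul, beta_self, mul_zero,
          zero_sub, beta_swap w (j w), hc₂]
        field_simp; ring
      have d2 : β d (j w) = 0 := by
        simp only [hd, map_sub, map_smul, LinearMap.sub_apply, LinearMap.smul_apply, smul_eq_mul, beta_self, mul_zero,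
          sub_zero, hc₁]
        field_simp; ring
      rw [hnv]
      have e1 : β (c₁ • w - c₂ • j w + (p • d + r • j d)) (j w) = c₁ * β w (j w) := by
        simp only [map_add, map_sub, map_smul, LinearMap.add_apply, LinearMap.sub_apply, LinearMap.smul_apply,
          smul_eq_mul, beta_self, H.jj d w, d1, d2, mul_zero, add_zero, sub_zero]
      have e2 : β (c₁ • w - c₂ • j w + (p • d + r • j d)) w = c₂ * β w (j w) := by
        simp only [map_add, map_sub, map_smul, LinearMap.add_apply, LinearMap.sub_apply, LinearMap.smul_apply,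
          smul_eq_mul, beta_self, H.anti d w, d1, d2, beta_swap w (j w), mul_zero, neg_zero, add_zero, zero_sub,
          mul_neg, neg_neg]
      rw [e1, e2, mul_div_cancel_right₀ _ hκ, mul_div_cancel_right₀ _ hκ, add_sub_cancel_left, map_add, map_smul,
        map_smul, H.sq]
      module
    have hcomm : ∀ y, J (((n * n : GL (Fin 2 ⊕ Fin 2) F) : Mat) *ᵥ y) = ((n * n : GL (Fin 2 ⊕ Fin 2) F) : Mat) *ᵥ J y := by
      intro y
      have e := H.sq_comm (Subgroup.mul_mem _ (Subgroup.mul_mem _ (hsp hg) hn) (Subgroup.inv_mem _ (hsp hg))) hN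
        ((g : Mat) *ᵥ y)
      rw [show g * n * g⁻¹ * (g * n * g⁻¹) = g * (n * n) * g⁻¹ by group] at e
      simp only [Units.val_mul, ← Matrix.mulVec_mulVec, gl_inv_mulVec] at e ⊢
      rw [hJ, hJ, ← e, gl_inv_mulVec, hgi]
    -- fixed vectors
    have hker : ∀ y, ((n * n : GL (Fin 2 ⊕ Fin 2) F) : Mat) *ᵥ y = y →
        y = (β y (j w) / β w (j w)) • w - (β y w / β w (j w)) • j w := by
      intro y hy
      rw [hR] at hy
      refine sub_eq_zero.mp (by_contra fun hd => hpr0 ?_)
      exact (H.indep hd (show (p * p + ν * (r * r) - 1) • _ + (2 * (p * r)) • _ = (0 : V) by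
        linear_combination (norm := module) hy)).2
    have hperp : ∀ y, β y w = 0 → β y (j w) = 0 →
        ((n * n : GL (Fin 2 ⊕ Fin 2) F) : Mat) *ᵥ y = (p * p + ν * (r * r)) • y + (2 * (p * r)) • j y := by
      intro y h1 h2
      rw [hR, h1, h2]; simp
    refine ⟨?_, fun y h1 h2 => ?_⟩
    · have := hker (J w) (by
        rw [← hcomm, hR, beta_self, div_self hκ]; simp)
      exact ⟨β (J w) (j w) / β w (j w), -(β (J w) w / β w (j w)), this.trans (by module)⟩
    have e := hcomm y
    rw [hperp y h1 h2, map_add, map_smul, map_smul, hR (J y)] at e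
    set d := J y - ((β (J y) (j w) / β w (j w)) • w - (β (J y) w / β w (j w)) • j w) with hd
    have f1 : β (J (j y)) w * (2 * (p * r)) = β (J y) w * (1 - (p * p + ν * (r * r))) := by
      have := congrArg (fun z => β z w) e
      have d1 : β d w = 0 := by
        simp only [hd, map_sub, map_smul, LinearMap.sub_apply, LinearMap.smul_apply, smul_eq_mul, beta_self, mul_zero,
          zero_sub, beta_swap w (j w)]
        field_simp; ring
      have d2 : β d (j w) = 0 := by
        simp only [hd, map_sub, map_smul, LinearMap.sub_apply, LinearMap.smul_apply, smul_eq_mul, beta_self, mul_zero,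
          sub_zero]
        field_simp; ring
      simp only [map_add, map_sub, map_smul, LinearMap.add_apply, LinearMap.sub_apply, LinearMap.smul_apply,
        smul_eq_mul, beta_self, H.anti d w, d1, d2, beta_swap w (j w), mul_neg, neg_neg, neg_zero, mul_zero, add_zero, zero_sub, sub_zero,
        div_mul_cancel₀ _ hκ] at this
      linear_combination this
    have f2 : β (J (j y)) (j w) * (2 * (p * r)) = β (J y) (j w) * (1 - (p * p + ν * (r * r))) := by
      have := congrArg (fun z => β z (j w)) e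
      have d1 : β d w = 0 := by
        simp only [hd, map_sub, map_smul, LinearMap.sub_apply, LinearMap.smul_apply, smul_eq_mul, beta_self, mul_zero,
          zero_sub, beta_swap w (j w)]
        field_simp; ring
      have d2 : β d (j w) = 0 := by
        simp only [hd, map_sub, map_smul, LinearMap.sub_apply, LinearMap.smul_apply, smul_eq_mul, beta_self, mul_zero,
          sub_zero]
        field_simp; ring
      simp only [map_add, map_sub, map_smul, LinearMap.add_apply, LinearMap.sub_apply, LinearMap.smul_apply,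
        smul_eq_mul, beta_self, H.jj d w, d1, d2, mul_neg, neg_neg, neg_zero, mul_zero, add_zero, zero_sub, sub_zero,
        div_mul_cancel₀ _ hκ] at this
      linear_combination this
    have hjy1 : β (j y) w = 0 := by rw [H.anti, h2, neg_zero]
    have hjy2 : β (j y) (j w) = 0 := by rw [H.jj, h1, mul_zero]
    have e' := hcomm (j y)
    rw [hperp (j y) hjy1 hjy2, map_add, map_smul, map_smul, H.sq, map_smul, hR (J (j y))] at e'
    have g1 : β (J y) w * (2 * (p * r) * ν) = β (J (j y)) w * (1 - (p * p + ν * (r * r))) := by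
      set d' := J (j y) - ((β (J (j y)) (j w) / β w (j w)) • w - (β (J (j y)) w / β w (j w)) • j w) with hd'
      have := congrArg (fun z => β z w) e'
      have d1 : β d' w = 0 := by
        simp only [hd', map_sub, map_smul, LinearMap.sub_apply, LinearMap.smul_apply, smul_eq_mul, beta_self, mul_zero,
          zero_sub, beta_swap w (j w)]
        field_simp; ring
      have d2 : β d' (j w) = 0 := by
        simp only [hd', map_sub, map_smul, LinearMap.sub_apply, LinearMap.smul_apply, smul_eq_mul, beta_self, mul_zero,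
          sub_zero]
        field_simp; ring
      simp only [map_add, map_sub, map_smul, LinearMap.add_apply, LinearMap.sub_apply, LinearMap.smul_apply,
        smul_eq_mul, beta_self, H.anti d' w, d1, d2, beta_swap w (j w), mul_neg, neg_neg, neg_zero, mul_zero, add_zero, zero_sub, sub_zero,
        div_mul_cancel₀ _ hκ] at this
      linear_combination this
    have g2 : β (J y) (j w) * (2 * (p * r) * ν) = β (J (j y)) (j w) * (1 - (p * p + ν * (r * r))) := by
      set d' := J (j y) - ((β (J (j y)) (j w) / β w (j w)) • w - (β (J (j y)) w / β w (j w)) • j w) with hd'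
      have := congrArg (fun z => β z (j w)) e'
      have d1 : β d' w = 0 := by
        simp only [hd', map_sub, map_smul, LinearMap.sub_apply, LinearMap.smul_apply, smul_eq_mul, beta_self, mul_zero,
          zero_sub, beta_swap w (j w)]
        field_simp; ring
      have d2 : β d' (j w) = 0 := by
        simp only [hd', map_sub, map_smul, LinearMap.sub_apply, LinearMap.smul_apply, smul_eq_mul, beta_self, mul_zero,
          sub_zero]
        field_simp; ring
      simp only [map_add, map_sub, map_smul, LinearMap.add_apply, LinearMap.sub_apply, LinearMap.smul_apply,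
        smul_eq_mul, beta_self, H.jj d' w, d1, d2, mul_neg, neg_neg, neg_zero, mul_zero, add_zero, zero_sub, sub_zero,
        div_mul_cancel₀ _ hκ] at this
      linear_combination this
    set A := 1 - (p * p + ν * (r * r))
    set B := 2 * (p * r)
    have hdet : B * B * ν - A * A ≠ 0 := fun h => H.not_sq (A / B) (by field_simp; linear_combination h)
    have z1 : β (J y) w = 0 := (mul_eq_zero.mp (show β (J y) w * (B * B * ν - A * A) = 0 by
      linear_combination B * g1 + A * f1)).resolve_right hdet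
    have z2 : β (J y) (j w) = 0 := (mul_eq_zero.mp (show β (J y) (j w) * (B * B * ν - A * A) = 0 by
      linear_combination B * g2 + A * f2)).resolve_right hdet
    refine ⟨z1, z2, ?_⟩
    rw [hd, z1, z2] at e
    simp only [zero_div, zero_smul, sub_zero, zero_add] at e
    exact smul_right_injective V hpr0 (by linear_combination (norm := module) e)
  obtain ⟨⟨α, δ, hJw⟩, k₁⟩ := key w₁ n₁ hn₁ hgn₁ hκ₁ hn₁v
  obtain ⟨-, k₂⟩ := key w₂ n₂ hn₂ hgn₂ hκ₂ hn₂v
  -- decomposition along the two perpendicular lines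
  obtain ⟨y₁, hy₁, hy₁', hκy₁⟩ : ∃ y, β y w₁ = 0 ∧ β y (j w₁) = 0 ∧ β y (j y) ≠ 0 := by
    set y := w₂ - ((β w₂ (j w₁) / β w₁ (j w₁)) • w₁)
    refine ⟨y, ?_, ?_, fun h => ?_⟩
    · simp only [y, map_sub, map_smul, LinearMap.sub_apply, LinearMap.smul_apply, beta_self, beta_swap w₁ w₂, h12']
      simp
    · simp only [y, map_sub, map_smul, LinearMap.sub_apply, LinearMap.smul_apply, smul_eq_mul]
      field_simp
      ring
    · simp only [y, map_sub, map_smul, LinearMap.sub_apply, LinearMap.smul_apply, smul_eq_mul,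
        H.swap_j w₁ w₂] at h
      have h' : β w₂ (j w₂) * β w₁ (j w₁) = β w₂ (j w₁) * β w₂ (j w₁) := by
        field_simp at h
        linear_combination h
      -- otherwise a singular vector would be moved to a singular vector
      refine hsing y (fun h0 => ?_) ?_ ?_
      · have e : w₂ = (β w₂ (j w₁) / β w₁ (j w₁)) • w₁ := sub_eq_zero.mp h0
        have e' := congrArg ((g : Mat) *ᵥ ·) e
        simp only [hgw₂, Matrix.mulVec_smul, hg₁] at e'
        exact one_ne_zero (H.indep hv0 (show (a₂ - β w₂ (j w₁) / β w₁ (j w₁)) • v + (1 : F) • j v = 0 by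
          linear_combination (norm := module) e')).2
      · rw [qf_apply]
        simp only [y, map_sub, map_smul, LinearMap.sub_apply, LinearMap.smul_apply, smul_eq_mul, H.swap_j w₁ w₂]
        field_simp
        linear_combination h'
      · simp only [y, Matrix.mulVec_sub, Matrix.mulVec_smul, hg₁, hgw₂]
        convert hqs (a₂ - β w₂ (j w₁) / β w₁ (j w₁)) 1 using 2
        module
  obtain ⟨y₂, hy₂, hy₂', hκy₂⟩ : ∃ y, β y w₂ = 0 ∧ β y (j w₂) = 0 ∧ β y (j y) ≠ 0 := by
    set y := w₁ - ((β w₁ (j w₂) / β w₂ (j w₂)) • w₂)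
    refine ⟨y, ?_, ?_, fun h => ?_⟩
    · simp only [y, map_sub, map_smul, LinearMap.sub_apply, LinearMap.smul_apply, beta_self, h12']
      simp
    · simp only [y, map_sub, map_smul, LinearMap.sub_apply, LinearMap.smul_apply, smul_eq_mul]
      field_simp
      ring
    · refine hsing y (fun h0 => ?_) h ?_
      · have e : w₁ = (β w₁ (j w₂) / β w₂ (j w₂)) • w₂ := sub_eq_zero.mp h0
        have e' := congrArg ((g : Mat) *ᵥ ·) e
        simp only [hgw₂, Matrix.mulVec_smul, hg₁] at e'
        obtain ⟨e1, e2⟩ := H.indep hv0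
          (show (1 - β w₁ (j w₂) / β w₂ (j w₂) * a₂) • v + (-(β w₁ (j w₂) / β w₂ (j w₂))) • j v = 0 by
            linear_combination (norm := module) e')
        exact one_ne_zero (by linear_combination e1 - a₂ * e2)
      · simp only [y, Matrix.mulVec_sub, Matrix.mulVec_smul, hg₁, hgw₂]
        convert hqs (1 - β w₁ (j w₂) / β w₂ (j w₂) * a₂) (-(β w₁ (j w₂) / β w₂ (j w₂))) using 2
        module
  have hsplit : ∀ (w y : V), β w (j w) ≠ 0 → β y (j y) ≠ 0 → β y w = 0 → β y (j w) = 0 → ∀ z : V,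
      z = (β z (j w) / β w (j w)) • w - (β z w / β w (j w)) • j w +
        ((β z (j y) / β y (j y)) • y - (β z y / β y (j y)) • j y) := by
    intro w y hw hy h1 h2 z
    have hjyw : β (j y) w = 0 := by rw [H.anti, h2, neg_zero]
    have hjyjw : β (j y) (j w) = 0 := by rw [H.jj, h1, mul_zero]
    have hwy : β w y = 0 := by rw [beta_swap y w, h1, neg_zero]
    have hwjy : β w (j y) = 0 := by rw [H.swap_j, h2]
    have hjwy : β (j w) y = 0 := by rw [H.anti, hwjy, neg_zero]
    have hjwjy : β (j w) (j y) = 0 := by rw [H.jj, hwy, mul_zero]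
    let b : Fin 4 → V := ![w, j w, y, j y]
    have hli : LinearIndependent F b := by
      refine Fintype.linearIndependent_iff.mpr fun c hc => ?_
      simp only [b, Fin.sum_univ_four, Matrix.cons_val_zero, Matrix.cons_val_one, Matrix.cons_val] at hc
      have e0 := congrArg (fun z => β z (j w)) hc
      have e1 := congrArg (fun z => β z w) hc
      have e2 := congrArg (fun z => β z (j y)) hc
      have e3 := congrArg (fun z => β z y) hc
      simp only [map_add, map_smul, map_zero, LinearMap.add_apply, LinearMap.smul_apply, LinearMap.zero_apply,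
        smul_eq_mul, beta_self, h1, h2, hjyw, hjyjw, hwy, hwjy, hjwy, hjwjy, beta_swap w (j w), beta_swap y (j y),
        mul_zero, add_zero, zero_add, mul_neg, neg_eq_zero, mul_eq_zero, hw, hy, or_false] at e0 e1 e2 e3
      intro i; fin_cases i <;> assumption
    have htop := hli.span_eq_top_of_card_eq_finrank (by simp)
    have hz : z ∈ Submodule.span F (Set.range b) := htop ▸ Submodule.mem_top
    obtain ⟨c, hc⟩ := (Submodule.mem_span_range_iff_exists_fun F).mp hz
    simp only [b, Fin.sum_univ_four, Matrix.cons_val_zero, Matrix.cons_val_one, Matrix.cons_val] at hc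
    rw [← hc]
    simp only [map_add, map_smul, LinearMap.add_apply, LinearMap.smul_apply, smul_eq_mul, beta_self, h1, h2, hjyw,
      hjyjw, hwy, hwjy, hjwy, hjwjy, beta_swap w (j w), beta_swap y (j y), mul_zero, add_zero, zero_add]
    match_scalars <;> field_simp
  have hline : ∀ w y : V, β w (j w) ≠ 0 → β y (j y) ≠ 0 → β y w = 0 → β y (j w) = 0 →
      (∀ y, β y w = 0 → β y (j w) = 0 → β (J y) w = 0 ∧ β (J y) (j w) = 0 ∧ J (j y) = j (J y)) →
      ∃ e : F, e * e = 1 ∧ J y = e • j y ∧ J (j y) = e • j (j y) := by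
    intro w y hw hy h1 h2 k
    obtain ⟨z1, z2, hc⟩ := k y h1 h2
    have e := hsplit w y hw hy h1 h2 (J y)
    rw [z1, z2, zero_div, zero_smul, zero_smul, sub_zero, zero_add] at e
    set a := β (J y) (j y) / β y (j y)
    set b := -(β (J y) y / β y (j y)) with hb
    have e' : J y = a • y + b • j y := by rw [e, hb]; module
    have hy0 : y ≠ 0 := fun h => hy (by rw [h, map_zero, LinearMap.zero_apply])
    have e2 := hJJ y
    rw [e', map_add, map_smul, map_smul, hc, e', map_add, map_smul, map_smul, H.sq] at e2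
    obtain ⟨i1, i2⟩ := H.indep hy0 (show (a * a + ν * (b * b) - ν) • y + (2 * (a * b)) • j y = 0 by
      linear_combination (norm := module) e2)
    rcases mul_eq_zero.mp ((mul_eq_zero.mp i2).resolve_left H.two) with ha | hb0
    · rw [ha, zero_smul, zero_add] at e'
      refine ⟨b, mul_left_cancel₀ hν (by rw [ha] at i1; linear_combination i1), e', ?_⟩
      rw [hc, e', map_smul]
    · exact absurd (by rw [hb0] at i1; linear_combination -i1) (H.not_sq a)
  obtain ⟨e₁, he₁, hJy₁, hJjy₁⟩ := hline w₁ y₁ hκ₁ hκy₁ hy₁ hy₁' k₁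
  obtain ⟨e₂, -, hJy₂, hJjy₂⟩ := hline w₂ y₂ hκ₂ hκy₂ hy₂ hy₂' k₂
  have hw₁' : ∀ z, β z w₁ = 0 → β z (j w₁) = 0 → J z = e₁ • j z := fun z h1 h2 => by
    have e := hsplit w₁ y₁ hκ₁ hκy₁ hy₁ hy₁' z
    rw [h1, h2, zero_div, zero_smul, zero_smul, sub_zero, zero_add] at e
    rw [e, map_sub, map_smul, map_smul, hJy₁, hJjy₁, map_sub, map_smul, map_smul]
    module
  have hw₂' : ∀ z, β z w₂ = 0 → β z (j w₂) = 0 → J z = e₂ • j z := fun z h1 h2 => by
    have e := hsplit w₂ y₂ hκ₂ hκy₂ hy₂ hy₂' z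
    rw [h1, h2, zero_div, zero_smul, zero_smul, sub_zero, zero_add] at e
    rw [e, map_sub, map_smul, map_smul, hJy₂, hJjy₂, map_sub, map_smul, map_smul]
    module
  -- `w₁` meets both lines
  have hw1dec := hsplit w₂ y₂ hκ₂ hκy₂ hy₂ hy₂' w₁
  rw [h12', zero_div, zero_smul, sub_zero] at hw1dec
  set c := β w₁ (j w₂) / β w₂ (j w₂) with hc
  have hc0 : c ≠ 0 := div_ne_zero (by rw [H.swap_j]; exact hne) hκ₂
  set q₁ := (β w₁ (j y₂) / β y₂ (j y₂)) • y₂ - (β w₁ y₂ / β y₂ (j y₂)) • j y₂ with hq₁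
  have hy₂p : β q₁ w₂ = 0 ∧ β q₁ (j w₂) = 0 := by
    constructor <;> simp [hq₁, hy₂, hy₂', H.anti y₂ w₂, H.jj y₂ w₂]
  -- `w₂` along `w₁` and the first line
  have hw2dec := hsplit w₁ y₁ hκ₁ hκy₁ hy₁ hy₁' w₂
  rw [show β w₂ w₁ = 0 by rw [beta_swap w₁ w₂, h12', neg_zero], zero_div, zero_smul, sub_zero] at hw2dec
  set c' := β w₂ (j w₁) / β w₁ (j w₁) with hc'
  set q₂ := (β w₂ (j y₁) / β y₁ (j y₁)) • y₁ - (β w₂ y₁ / β y₁ (j y₁)) • j y₁ with hq₂'
  have hy₁p : β q₂ w₁ = 0 ∧ β q₂ (j w₁) = 0 := by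
    constructor <;> simp [hq₂', hy₁, hy₁', H.anti y₁ w₁, H.jj y₁ w₁]
  have hJq₁ := hw₂' q₁ hy₂p.1 hy₂p.2
  have hJq₂ := hw₁' q₂ hy₁p.1 hy₁p.2
  have hkey : (1 - c * c') • J w₁ = (c * e₁) • j q₂ + e₂ • j q₁ := by
    have e1 : J w₁ = c • J w₂ + e₂ • j q₁ := by
      conv_lhs => rw [hw1dec]
      rw [map_add, map_smul, hJq₁]
    have e2 : J w₂ = c' • J w₁ + e₁ • j q₂ := by
      conv_lhs => rw [hw2dec]
      rw [map_add, map_smul, hJq₂]
    rw [sub_smul, one_smul]
    conv_lhs => arg 1; rw [e1, e2]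
    module
  have hq1e : q₁ = w₁ - c • w₂ := eq_sub_of_add_eq' hw1dec.symm
  have hq2e : q₂ = w₂ - c' • w₁ := eq_sub_of_add_eq' hw2dec.symm
  rw [hq1e, hq2e, map_sub, map_sub, map_smul, map_smul, hJw] at hkey
  have hkey' : ((1 - c * c') * α) • w₁ + ((1 - c * c') * δ + c * e₁ * c' - e₂) • j w₁ +
      (c * (e₂ - e₁)) • j w₂ = 0 := by linear_combination (norm := module) hkey
  have heq : e₁ = e₂ := by
    by_contra h
    have hz : c * (e₂ - e₁) ≠ 0 := mul_ne_zero hc0 (sub_ne_zero.mpr (Ne.symm h))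
    have h3 := congrArg (fun z => β z (j w₁)) hkey'
    have h4 := congrArg (fun z => β z w₁) hkey'
    have h5 := congrArg (fun z => β z w₂) hkey'
    have j12 : β (j w₂) (j w₁) = 0 := by rw [H.jj, beta_swap w₁ w₂, h12']; simp
    simp only [map_add, map_smul, map_zero, LinearMap.add_apply, LinearMap.smul_apply, LinearMap.zero_apply,
      smul_eq_mul, beta_self, j12, H.anti w₂ w₁, beta_swap w₁ (j w₁), h12', H.anti w₁ w₂, H.swap_j w₁ w₂,
      beta_swap w₂ (j w₂), mul_zero, add_zero, zero_add] at h3 h4 h5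
    have hα := (mul_eq_zero.mp h3).resolve_right hκ₁
    have h6 : (c * (e₂ - e₁)) * (β w₂ (j w₂) * β w₁ (j w₁) - β w₂ (j w₁) * β w₂ (j w₁)) = 0 := by
      linear_combination β w₂ (j w₁) * h4 - β w₁ (j w₁) * h5
    have hdet := (mul_eq_zero.mp h6).resolve_left hz
    refine hκy₁ ?_
    have e := hsplit w₁ y₁ hκ₁ hκy₁ hy₁ hy₁' w₂
    rw [show β w₂ w₁ = 0 by rw [beta_swap w₁ w₂, h12', neg_zero], zero_div, zero_smul, sub_zero] at e
    have hjj : β q₂ (j q₂) = 0 := by
      rw [hq2e, hc']
      simp only [map_sub, map_smul, LinearMap.sub_apply, LinearMap.smul_apply, smul_eq_mul, H.swap_j w₁ w₂]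
      field_simp
      linear_combination hdet
    exfalso
    refine hsing q₂ (fun h0 => hz ?_) hjj ?_
    · have e' : w₂ = c' • w₁ := sub_eq_zero.mp (hq2e ▸ h0)
      have e'' := congrArg ((g : Mat) *ᵥ ·) e'
      simp only [hgw₂, Matrix.mulVec_smul, hg₁] at e''
      exact absurd (H.indep hv0 (show (a₂ - c') • v + (1 : F) • j v = 0 by
        linear_combination (norm := module) e'')).2 one_ne_zero
    · rw [hq2e, Matrix.mulVec_sub, Matrix.mulVec_smul, hg₁, hgw₂]
      convert hqs (a₂ - c') 1 using 2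
      module
  refine hgn ⟨0, e₁, fun y => ?_⟩
  have hall : ∀ y, J y = e₁ • j y := by
    intro y
    have hw1' : J w₁ = e₁ • j w₁ := by
      rw [← heq] at hkey'
      simp only [sub_self, mul_zero, zero_smul, add_zero] at hkey'
      obtain ⟨i1, i2⟩ := H.indep (fun h => hκ₁ (by rw [h, map_zero, LinearMap.zero_apply])) hkey'
      have hcc : 1 - c * c' ≠ 0 := fun h => hκy₁ (by
        exfalso
        refine hsing q₂ (fun h0 => hc0 ?_) ?_ ?_
        · have e' : w₂ = c' • w₁ := sub_eq_zero.mp (hq2e ▸ h0)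
          have e'' := congrArg ((g : Mat) *ᵥ ·) e'
          simp only [hgw₂, Matrix.mulVec_smul, hg₁] at e''
          exact absurd (H.indep hv0 (show (a₂ - c') • v + (1 : F) • j v = 0 by
            linear_combination (norm := module) e'')).2 one_ne_zero
        · rw [qf_apply, hq2e, hc']
          simp only [map_sub, map_smul, LinearMap.sub_apply, LinearMap.smul_apply, smul_eq_mul, H.swap_j w₁ w₂]
          rw [hc, hc', H.swap_j w₁ w₂] at h
          field_simp at h ⊢
          linear_combination h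
        · rw [hq2e, Matrix.mulVec_sub, Matrix.mulVec_smul, hg₁, hgw₂]
          convert hqs (a₂ - c') 1 using 2
          module)
      rw [hJw, (mul_eq_zero.mp i1).resolve_left hcc, zero_smul, zero_add,
        show δ = e₁ from sub_eq_zero.mp ((mul_eq_zero.mp (show (1 - c * c') * (δ - e₁) = 0 by
          linear_combination i2)).resolve_left hcc)]
    have hjw1 : J (j w₁) = e₁ • j (j w₁) := by
      have := hJJ w₁
      rw [hw1', map_smul] at this
      rw [H.sq, ← one_smul F (J (j w₁)), ← he₁, ← smul_smul, this, smul_smul]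
    have e := hsplit w₁ y₁ hκ₁ hκy₁ hy₁ hy₁' y
    rw [e]
    simp only [map_add, map_sub, map_smul, hw1', hjw1, hJy₁, hJjy₁]
    module
  rw [zero_smul, zero_add]
  have := congrArg ((g : Mat) *ᵥ ·) (hall y)
  simp only [hJ, hgi, gl_mulVec_inv, Matrix.mulVec_smul] at this
  rw [this, smul_smul, he₁, one_smul]

end Cfsg.Agent.H99.SpFour
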